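import Cfsg.Agent.Lib.Helper66.ASP4.Defs

set_option autoImplicit false

namespace Cfsg.Agent.Lib.Helper66.ASP4

open Cfsg Cfsg.Geo Cfsg.Agent.Lib.Helper77.Asch
open scoped MatrixGroups Matrix

variable {F : Type*} [Field F]
variable {ι : Type} [Fintype ι] [DecidableEq ι]

/-! ## A. API of the form (general m): ADJ -/

theorem adj_JJ (m : ℕ) (X : Matrix (Fin m ⊕ Fin m) (Fin m ⊕ Fin m) F) :
    Matrix.J (Fin m) F * (Matrix.J (Fin m) F * X) = -X := by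
  rw [← mul_assoc, Matrix.J_squared, neg_one_mul]

theorem adj_mulVec_dot (a : Matrix ι ι F) (u w : ι → F) :
    (a *ᵥ u) ⬝ᵥ w = u ⬝ᵥ (aᵀ *ᵥ w) := by
  rw [Matrix.dotProduct_mulVec, Matrix.vecMul_transpose]

theorem adj_ext (M M' : Matrix ι ι F) (h : ∀ u v, u ⬝ᵥ (M *ᵥ v) = u ⬝ᵥ (M' *ᵥ v)) : M = M' := by
  ext i j
  have := h (Pi.single i 1) (Pi.single j 1)
  simpa using this

/-- ADJ. -/
theorem adj_spec (m : ℕ) (a : Matrix (Fin m ⊕ Fin m) (Fin m ⊕ Fin m) F) (u v : Fin m ⊕ Fin m → F) :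
    sympForm m F (a *ᵥ u) v = sympForm m F u (adjM m a *ᵥ v) := by
  unfold sympForm adjM
  rw [adj_mulVec_dot, Matrix.mulVec_mulVec, Matrix.mulVec_mulVec, mul_neg, mul_assoc, adj_JJ,
    neg_neg]

/-- ADJ. -/
theorem adj_unique (m : ℕ) (a b : Matrix (Fin m ⊕ Fin m) (Fin m ⊕ Fin m) F)
    (h : ∀ u v, sympForm m F (a *ᵥ u) v = sympForm m F u (b *ᵥ v)) : b = adjM m a := by
  have h1 : Matrix.J (Fin m) F * b = Matrix.J (Fin m) F * adjM m a := by
    apply adj_ext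
    intro u v
    have h2 := h u v
    rw [adj_spec] at h2
    unfold sympForm at h2
    rw [Matrix.mulVec_mulVec, Matrix.mulVec_mulVec] at h2
    exact h2.symm
  have h3 := congrArg (fun X => Matrix.J (Fin m) F * X) h1
  simp only [adj_JJ] at h3
  exact neg_injective h3

/-- ADJ. -/
theorem adj_mul (m : ℕ) (a b : Matrix (Fin m ⊕ Fin m) (Fin m ⊕ Fin m) F) :
    adjM m (a * b) = adjM m b * adjM m a := by
  unfold adjM
  rw [Matrix.transpose_mul, neg_mul_neg]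
  simp only [mul_assoc, adj_JJ, mul_neg]

/-- ADJ. -/
theorem adj_add (m : ℕ) (a b : Matrix (Fin m ⊕ Fin m) (Fin m ⊕ Fin m) F) :
    adjM m (a + b) = adjM m a + adjM m b := by
  unfold adjM
  rw [Matrix.transpose_add, mul_add, add_mul, neg_add]

/-- ADJ. -/
theorem adj_smul (m : ℕ) (c : F) (a : Matrix (Fin m ⊕ Fin m) (Fin m ⊕ Fin m) F) :
    adjM m (c • a) = c • adjM m a := by
  unfold adjM
  rw [Matrix.transpose_smul, mul_smul_comm, smul_mul_assoc, smul_neg]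

/-- ADJ. -/
theorem adj_one (m : ℕ) : adjM m (1 : Matrix (Fin m ⊕ Fin m) (Fin m ⊕ Fin m) F) = 1 := by
  unfold adjM
  rw [Matrix.transpose_one, mul_one, Matrix.J_squared, neg_neg]

/-- ADJ. -/
theorem adj_adj (m : ℕ) (a : Matrix (Fin m ⊕ Fin m) (Fin m ⊕ Fin m) F) : adjM m (adjM m a) = a := by
  unfold adjM
  rw [Matrix.transpose_neg, Matrix.transpose_mul, Matrix.transpose_mul, Matrix.transpose_transpose,
    Matrix.J_transpose]
  simp only [mul_assoc, neg_mul, mul_neg, neg_neg, adj_JJ, Matrix.J_squared, mul_one]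

/-- ADJ. g ∈ spGL: f (g u) v = f (g u) (g g⁻¹ v) = f u (g⁻¹ v); adj_unique. -/
theorem adj_of_mem (m : ℕ) (g : GL (Fin m ⊕ Fin m) F) (hg : g ∈ spGL m F) :
    adjM m (g : Matrix (Fin m ⊕ Fin m) (Fin m ⊕ Fin m) F) = ((g⁻¹ : GL (Fin m ⊕ Fin m) F) : Matrix _ _ F) := by
  symm
  apply adj_unique
  intro u v
  have h := hg u (((g⁻¹ : GL (Fin m ⊕ Fin m) F) : Matrix _ _ F) *ᵥ v)
  have h1 : (g : Matrix (Fin m ⊕ Fin m) (Fin m ⊕ Fin m) F) *ᵥ
      (((g⁻¹ : GL (Fin m ⊕ Fin m) F) : Matrix _ _ F) *ᵥ v) = v := by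
    rw [Matrix.mulVec_mulVec, ← Units.val_mul, mul_inv_cancel, Units.val_one, Matrix.one_mulVec]
  simp only [Units.coeHom_apply] at h
  rw [h1] at h
  exact h

end Cfsg.Agent.Lib.Helper66.ASP4
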