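import Cfsg.Agent.Lib.Helper66.ASP4.ADJ

set_option autoImplicit false
set_option linter.unusedSectionVars false
set_option linter.unusedVariables false

namespace Cfsg.Agent.Lib.Helper66.ASP4

open Cfsg Cfsg.Geo Cfsg.Agent.Lib.Helper77.Asch
open scoped MatrixGroups Matrix

variable {F : Type*} [Field F]
variable {ι : Type} [Fintype ι] [DecidableEq ι]

/-- ADJOIN -/
theorem adjoin_comm (M : Subgroup (GL ι F)) (h : ∀ x ∈ M, ∀ y ∈ M, x * y = y * x) :
    ∀ x ∈ Algebra.adjoin F (matrixSet M), ∀ y ∈ Algebra.adjoin F (matrixSet M), x * y = y * x := by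
  have h0 : ∀ a ∈ matrixSet M, ∀ b ∈ matrixSet M, a * b = b * a := by
    rintro _ ⟨x, hx, rfl⟩ _ ⟨y, hy, rfl⟩
    rw [← Units.val_mul, ← Units.val_mul, h x hx y hy]
  have h1 : Algebra.adjoin F (matrixSet M) ≤ Subalgebra.centralizer F (matrixSet M) := by
    apply Algebra.adjoin_le
    intro a ha
    rw [SetLike.mem_coe, Subalgebra.mem_centralizer_iff]
    intro b hb
    exact h0 b hb a ha
  have h2 : Algebra.adjoin F (matrixSet M) ≤
      Subalgebra.centralizer F (Algebra.adjoin F (matrixSet M) : Set (Matrix ι ι F)) := by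
    apply Algebra.adjoin_le
    intro a ha
    rw [SetLike.mem_coe, Subalgebra.mem_centralizer_iff]
    intro b hb
    have := h1 hb
    rw [Subalgebra.mem_centralizer_iff] at this
    exact (this a ha).symm
  intro x hx y hy
  have := h2 hx
  rw [Subalgebra.mem_centralizer_iff] at this
  exact (this y hy).symm

/-- ADJOIN -/
theorem adjoin_adj (m : ℕ) (M : Subgroup (GL (Fin m ⊕ Fin m) F)) (hM : M ≤ spGL m F) :
    ∀ a ∈ Algebra.adjoin F (matrixSet M), adjM m a ∈ Algebra.adjoin F (matrixSet M) := by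
  intro a ha
  induction ha using Algebra.adjoin_induction with
  | mem x hx =>
    obtain ⟨g, hg, rfl⟩ := hx
    rw [adj_of_mem m g (hM hg)]
    exact Algebra.subset_adjoin ⟨g⁻¹, inv_mem hg, rfl⟩
  | algebraMap r =>
    rw [Algebra.algebraMap_eq_smul_one, adj_smul, adj_one]
    exact Subalgebra.smul_mem _ (one_mem _) r
  | add x y _ _ hx hy =>
    rw [adj_add]
    exact add_mem hx hy
  | mul x y _ _ hx hy =>
    rw [adj_mul]
    exact mul_mem hy hx

theorem adjoin_conj_mem (L M : Subgroup (GL ι F)) (hn : NormBy L M) (g : GL ι F) (hg : g ∈ L)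
    (a : Matrix ι ι F) (ha : a ∈ Algebra.adjoin F (matrixSet M)) :
    (g : Matrix ι ι F) * a * ((g⁻¹ : GL ι F) : Matrix ι ι F) ∈ Algebra.adjoin F (matrixSet M) := by
  have e2 : ((g⁻¹ : GL ι F) : Matrix ι ι F) * (g : Matrix ι ι F) = 1 := by
    rw [← Units.val_mul, inv_mul_cancel, Units.val_one]
  have e1 : (g : Matrix ι ι F) * ((g⁻¹ : GL ι F) : Matrix ι ι F) = 1 := by
    rw [← Units.val_mul, mul_inv_cancel, Units.val_one]
  induction ha using Algebra.adjoin_induction with
  | mem x hx =>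
    obtain ⟨y, hy, rfl⟩ := hx
    exact Algebra.subset_adjoin ⟨g * y * g⁻¹, hn g hg y hy, by simp only [Units.val_mul]⟩
  | algebraMap r =>
    rw [Algebra.algebraMap_eq_smul_one, Matrix.mul_smul, mul_one, Matrix.smul_mul, e1]
    exact Subalgebra.smul_mem _ (one_mem _) r
  | add x y _ _ hx hy =>
    rw [mul_add, add_mul]
    exact add_mem hx hy
  | mul x y _ _ hx hy =>
    have : (g : Matrix ι ι F) * (x * y) * ((g⁻¹ : GL ι F) : Matrix ι ι F)
        = ((g : Matrix ι ι F) * x * ((g⁻¹ : GL ι F) : Matrix ι ι F)) *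
          ((g : Matrix ι ι F) * y * ((g⁻¹ : GL ι F) : Matrix ι ι F)) := by
      calc (g : Matrix ι ι F) * (x * y) * ((g⁻¹ : GL ι F) : Matrix ι ι F)
          = (g : Matrix ι ι F) * x * 1 * y * ((g⁻¹ : GL ι F) : Matrix ι ι F) := by
            simp only [mul_one, mul_assoc]
        _ = _ := by rw [← e2]; simp only [mul_assoc]
    rw [this]
    exact mul_mem hx hy

/-- ADJOIN -/
theorem adjoin_norm (L M : Subgroup (GL ι F)) (hn : NormBy L M) :
    L ≤ subalgebraNormalizer (Algebra.adjoin F (matrixSet M)) := by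
  intro g hg k
  constructor
  · exact adjoin_conj_mem L M hn g hg k
  · intro h
    have := adjoin_conj_mem L M hn g⁻¹ (inv_mem hg) _ h
    rw [inv_inv] at this
    have e2 : ((g⁻¹ : GL ι F) : Matrix ι ι F) * (g : Matrix ι ι F) = 1 := by
      rw [← Units.val_mul, inv_mul_cancel, Units.val_one]
    have e : ((g⁻¹ : GL ι F) : Matrix ι ι F) * ((g : Matrix ι ι F) * k * ((g⁻¹ : GL ι F) : Matrix ι ι F)) * (g : Matrix ι ι F) = k := by
      calc _ = (((g⁻¹ : GL ι F) : Matrix ι ι F) * (g : Matrix ι ι F)) * k * (((g⁻¹ : GL ι F) : Matrix ι ι F) * (g : Matrix ι ι F)) := by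
            simp only [mul_assoc]
        _ = k := by rw [e2, one_mul, mul_one]
    rwa [e] at this

end Cfsg.Agent.Lib.Helper66.ASP4
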