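import Cfsg.Agent.Lib.Helper66.ASP4.Defs

set_option autoImplicit false

namespace Cfsg.Agent.Lib.Helper66.ASP4

open Cfsg Cfsg.Geo Cfsg.Agent.Lib.Helper77.Asch
open scoped MatrixGroups Matrix

variable {F : Type*} [Field F]
variable {ι : Type} [Fintype ι] [DecidableEq ι]

theorem symp_skew (m : ℕ) (u v : Fin m ⊕ Fin m → F) : sympForm m F u v = - sympForm m F v u := by
  unfold sympForm
  rw [Matrix.dotProduct_mulVec, ← Matrix.mulVec_transpose, Matrix.J_transpose, Matrix.neg_mulVec,
    neg_dotProduct, dotProduct_comm]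

theorem symp_alt (m : ℕ) (v : Fin m ⊕ Fin m → F) : sympForm m F v v = 0 := by
  unfold sympForm Matrix.J
  rw [Matrix.fromBlocks_mulVec]
  simp only [dotProduct, Fintype.sum_sum_type, Sum.elim_inl, Sum.elim_inr, Matrix.zero_mulVec,
    Matrix.neg_mulVec, Matrix.one_mulVec, zero_add, add_zero, Pi.neg_apply, Function.comp_apply,
    mul_neg, Finset.sum_neg_distrib]
  rw [neg_add_eq_zero]
  exact Finset.sum_congr rfl (fun i _ => mul_comm _ _)

theorem symp_J_mulVec_ne (m : ℕ) (v : Fin m ⊕ Fin m → F) (hv : v ≠ 0) :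
    Matrix.J (Fin m) F *ᵥ v ≠ 0 := by
  intro h
  apply hv
  have h1 := congrArg (fun w => Matrix.J (Fin m) F *ᵥ w) h
  simp only [Matrix.mulVec_mulVec, Matrix.J_squared, Matrix.mulVec_zero, Matrix.neg_mulVec,
    Matrix.one_mulVec, neg_eq_zero] at h1
  exact h1

/-- SYMP. -/
theorem symp_isSymplectic (m : ℕ) : IsSymplecticForm (sympForm m F) := by
  refine ⟨⟨?_, ?_, ?_, ?_⟩, symp_skew m, symp_alt m, ?_⟩
  · intro x y v
    unfold sympForm
    rw [add_dotProduct]
  · intro c x v
    unfold sympForm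
    rw [smul_dotProduct, smul_eq_mul]
  · intro v x y
    unfold sympForm
    rw [Matrix.mulVec_add, dotProduct_add]
  · intro c v x
    unfold sympForm
    rw [Matrix.mulVec_smul, dotProduct_smul, smul_eq_mul]
  · intro v hv
    have h1 := symp_J_mulVec_ne m v hv
    obtain ⟨i, hi⟩ : ∃ i, (Matrix.J (Fin m) F *ᵥ v) i ≠ 0 := by
      by_contra hcon
      push Not at hcon
      exact h1 (funext hcon)
    have h2 : sympForm m F (Pi.single i 1) v ≠ 0 := by
      unfold sympForm
      rw [single_dotProduct, one_mul]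
      exact hi
    refine ⟨⟨_, h2⟩, ⟨Pi.single i 1, ?_⟩⟩
    rw [symp_skew]
    exact neg_ne_zero.2 h2

end Cfsg.Agent.Lib.Helper66.ASP4
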