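import Cfsg.Agent.Lib.Helper66.ASP4.ADJ
import Cfsg.Agent.Lib.Helper66.ASP4.SYMP

set_option autoImplicit false
set_option linter.unusedSectionVars false
set_option linter.unusedVariables false

namespace Cfsg.Agent.Lib.Helper66.ASP4

open Cfsg Cfsg.Geo Cfsg.Agent.Lib.Helper77.Asch
open scoped MatrixGroups Matrix

variable {F : Type*} [Field F]
variable {ι : Type} [Fintype ι] [DecidableEq ι]

/-- ALT -/
theorem alt_of_selfadjoint [Finite F] [CharP F 2] (m r : ℕ)
    (K : Subalgebra F (Matrix (Fin m ⊕ Fin m) (Fin m ⊕ Fin m) F)) (hK : IsFieldSubalgebra r K)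
    (hsa : ∀ k ∈ K, adjM m k = k) (k : Matrix (Fin m ⊕ Fin m) (Fin m ⊕ Fin m) F) (hk : k ∈ K)
    (v : Fin m ⊕ Fin m → F) : sympForm m F (k *ᵥ v) v = 0 := by
  have hinj : Function.Injective (fun x : K => x * x) := by
    intro x y hxy
    have h1 : (x : Matrix (Fin m ⊕ Fin m) (Fin m ⊕ Fin m) F) * x = y * y := congrArg Subtype.val hxy
    have hcomm := hK.comm x x.2 y y.2
    have h2 : ((x : Matrix (Fin m ⊕ Fin m) (Fin m ⊕ Fin m) F) - y) * (x - y) = 0 := by
      have h3 : ((x : Matrix (Fin m ⊕ Fin m) (Fin m ⊕ Fin m) F) - y) * (x - y)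
          = x * x + y * y - (2 : F) • ((x : Matrix (Fin m ⊕ Fin m) (Fin m ⊕ Fin m) F) * y) := by
        rw [sub_mul, mul_sub, mul_sub, ← hcomm, two_smul]
        abel
      rw [h3, CharTwo.two_eq_zero, zero_smul, sub_zero, h1]
      have : (y : Matrix (Fin m ⊕ Fin m) (Fin m ⊕ Fin m) F) * y + y * y = (2 : F) • ((y : Matrix (Fin m ⊕ Fin m) (Fin m ⊕ Fin m) F) * y) := by
        rw [two_smul]
      rw [this, CharTwo.two_eq_zero, zero_smul]
    by_contra hne
    have hne' : (x : Matrix (Fin m ⊕ Fin m) (Fin m ⊕ Fin m) F) - y ≠ 0 := by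
      intro h
      exact hne (Subtype.ext (sub_eq_zero.1 h))
    obtain ⟨z, -, hz⟩ := hK.inv _ (K.sub_mem x.2 y.2) hne'
    apply hne'
    calc (x : Matrix (Fin m ⊕ Fin m) (Fin m ⊕ Fin m) F) - y = (x - y) * ((x - y) * z) := by rw [hz, mul_one]
      _ = 0 := by rw [← mul_assoc, h2, zero_mul]
  haveI : Finite K := Finite.of_injective (fun x : K => (x : Matrix (Fin m ⊕ Fin m) (Fin m ⊕ Fin m) F)) Subtype.val_injective
  obtain ⟨s, hs⟩ := (Finite.injective_iff_surjective.1 hinj) ⟨k, hk⟩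
  have hs' : (s : Matrix (Fin m ⊕ Fin m) (Fin m ⊕ Fin m) F) * s = k := congrArg Subtype.val hs
  rw [← hs', ← Matrix.mulVec_mulVec, adj_spec, hsa _ s.2]
  exact symp_alt m _

end Cfsg.Agent.Lib.Helper66.ASP4
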