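import Cfsg.Agent.Lib.Helper66.ASP4.Defs
import Cfsg.Agent.Lib.Helper66.ASP4.SYMP

set_option autoImplicit false

namespace Cfsg.Agent.Lib.Helper66.ASP4

open Cfsg Cfsg.Geo Cfsg.Agent.Lib.Helper77.Asch
open scoped MatrixGroups Matrix

variable {F : Type*} [Field F]
variable {ι : Type} [Fintype ι] [DecidableEq ι]

theorem mem_perp (m : ℕ) (W : Submodule F (Fin m ⊕ Fin m → F)) (v : Fin m ⊕ Fin m → F) :
    v ∈ perp m W ↔ ∀ w ∈ W, sympForm m F w v = 0 := Iff.rfl

theorem perp_eq_orthogonal (m : ℕ) (W : Submodule F (Fin m ⊕ Fin m → F)) :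
    perp m W = (Matrix.toBilin' (Matrix.J (Fin m) F)).orthogonal W := by
  ext v
  rw [mem_perp, LinearMap.BilinForm.mem_orthogonal_iff]
  refine forall_congr' (fun w => forall_congr' (fun _ => ?_))
  rw [Matrix.toBilin'_apply']
  rfl

theorem perp_nondeg (m : ℕ) : (Matrix.toBilin' (Matrix.J (Fin m) F)).Nondegenerate :=
  LinearMap.BilinForm.nondegenerate_toBilin'_of_det_ne_zero' _ (Matrix.isUnit_det_J (Fin m) F).ne_zero

theorem perp_refl (m : ℕ) : (Matrix.toBilin' (Matrix.J (Fin m) F)).IsRefl := by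
  intro x y h
  have h1 : sympForm m F x y = 0 := by
    have := h
    rw [Matrix.toBilin'_apply'] at this
    exact this
  have h2 : sympForm m F y x = 0 := by
    rw [symp_skew, h1, neg_zero]
  show (Matrix.toBilin' (Matrix.J (Fin m) F)) y x = 0
  rw [Matrix.toBilin'_apply']
  exact h2

/-- PERP. dimension formula. -/
theorem perp_finrank (m : ℕ) (W : Submodule F (Fin m ⊕ Fin m → F)) :
    Module.finrank F W + Module.finrank F (perp m W) = 2 * m := by
  rw [perp_eq_orthogonal, LinearMap.BilinForm.finrank_orthogonal (perp_nondeg m)]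
  have h1 : Module.finrank F (Fin m ⊕ Fin m → F) = 2 * m := by
    rw [Module.finrank_fintype_fun_eq_card, Fintype.card_sum, Fintype.card_fin]
    ring
  have h2 := Submodule.finrank_le W
  omega

/-- PERP. W ≤ perp (perp W) by skew-symmetry, equal dimensions. -/
theorem perp_perp (m : ℕ) (W : Submodule F (Fin m ⊕ Fin m → F)) : perp m (perp m W) = W := by
  rw [perp_eq_orthogonal, perp_eq_orthogonal,
    LinearMap.BilinForm.orthogonal_orthogonal (perp_nondeg m) (perp_refl m)]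

/-- PERP. -/
theorem perp_map (m : ℕ) (W : Submodule F (Fin m ⊕ Fin m → F)) (g : GL (Fin m ⊕ Fin m) F) (hg : g ∈ spGL m F) :
    (perp m W).map (Matrix.toLin' (g : Matrix (Fin m ⊕ Fin m) (Fin m ⊕ Fin m) F)) =
      perp m (W.map (Matrix.toLin' (g : Matrix (Fin m ⊕ Fin m) (Fin m ⊕ Fin m) F))) := by
  have hg' : ∀ u v, sympForm m F ((g : Matrix (Fin m ⊕ Fin m) (Fin m ⊕ Fin m) F) *ᵥ u)
      ((g : Matrix (Fin m ⊕ Fin m) (Fin m ⊕ Fin m) F) *ᵥ v) = sympForm m F u v := hg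
  ext v
  rw [Submodule.mem_map, mem_perp]
  constructor
  · rintro ⟨x, hx, rfl⟩ w hw
    obtain ⟨w', hw', rfl⟩ := Submodule.mem_map.1 hw
    rw [Matrix.toLin'_apply, Matrix.toLin'_apply, hg']
    exact hx w' hw'
  · intro h
    have h1 : (g : Matrix (Fin m ⊕ Fin m) (Fin m ⊕ Fin m) F) *ᵥ
        (((g⁻¹ : GL (Fin m ⊕ Fin m) F) : Matrix _ _ F) *ᵥ v) = v := by
      rw [Matrix.mulVec_mulVec, ← Units.val_mul, mul_inv_cancel, Units.val_one, Matrix.one_mulVec]
    refine ⟨((g⁻¹ : GL (Fin m ⊕ Fin m) F) : Matrix _ _ F) *ᵥ v, ?_, ?_⟩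
    · intro w hw
      rw [← hg', h1]
      refine h _ (Submodule.mem_map.2 ⟨w, hw, ?_⟩)
      rw [Matrix.toLin'_apply]
    · rw [Matrix.toLin'_apply, h1]

end Cfsg.Agent.Lib.Helper66.ASP4
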