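import Cfsg.Agent.Lib.Helper66.ASP4.Defs
import Cfsg.Agent.Lib.Helper66.ASP4.SYMP
import Cfsg.Agent.Lib.Helper66.ASP4.PERP

set_option autoImplicit false

namespace Cfsg.Agent.Lib.Helper66.ASP4

open Cfsg Cfsg.Geo Cfsg.Agent.Lib.Helper77.Asch
open scoped MatrixGroups Matrix

variable {F : Type*} [Field F]
variable {ι : Type} [Fintype ι] [DecidableEq ι]

/-- D2. -/
theorem out2_of_plane (L : Subgroup (GL (Fin 2 ⊕ Fin 2) F)) (hL : L ≤ spGL 2 F)
    (W : Submodule F (Fin 2 ⊕ Fin 2 → F)) (hW : W ⊓ perp 2 W = ⊥) (h2 : Module.finrank F W = 2)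
    (h : ∀ g ∈ L, W.map (Matrix.toLin' (g : Matrix (Fin 2 ⊕ Fin 2) (Fin 2 ⊕ Fin 2) F)) = W ∨
      W.map (Matrix.toLin' (g : Matrix (Fin 2 ⊕ Fin 2) (Fin 2 ⊕ Fin 2) F)) = perp 2 W) : Out2 L := by
  have hs := symp_isSymplectic (F := F) 2
  have hp2 : Module.finrank F (perp 2 W) = 2 := by
    have := perp_finrank 2 W
    omega
  have hD0 : (![W, perp 2 W] : Fin 2 → Submodule F (Fin 2 ⊕ Fin 2 → F)) 0 = W := rfl
  have hD1 : (![W, perp 2 W] : Fin 2 → Submodule F (Fin 2 ⊕ Fin 2 → F)) 1 = perp 2 W := rfl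
  refine ⟨![W, perp 2 W], ⟨⟨le_rfl, by norm_num, ?_, ?_, ?_⟩, ?_, ?_⟩, ?_⟩
  · intro i
    fin_cases i
    · exact h2
    · exact hp2
  · rw [iSupIndep_pair (i := (0 : Fin 2)) (j := 1) (by decide) (by decide)]
    rw [hD0, hD1, disjoint_iff]
    exact hW
  · have h3 : W ⊔ perp 2 W = ⊤ := by
      apply Submodule.eq_top_of_finrank_eq
      have h4 := Submodule.finrank_sup_add_finrank_inf_eq W (perp 2 W)
      rw [hW, finrank_bot, h2, hp2] at h4
      rw [Module.finrank_fintype_fun_eq_card]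
      simp only [Fintype.card_sum, Fintype.card_fin]
      omega
    rw [eq_top_iff, ← h3]
    exact sup_le (le_iSup (![W, perp 2 W] : Fin 2 → Submodule F (Fin 2 ⊕ Fin 2 → F)) 0)
      (le_iSup (![W, perp 2 W] : Fin 2 → Submodule F (Fin 2 ⊕ Fin 2 → F)) 1)
  · have key : ∀ X : Submodule F (Fin 2 ⊕ Fin 2 → F), X ⊓ perp 2 X = ⊥ →
        IsNondegenerateOn (sympForm 2 F) X := by
      intro X hX w hw hw0
      have h5 : ∃ x ∈ X, sympForm 2 F x w ≠ 0 := by
        by_contra hcon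
        push Not at hcon
        have : w ∈ X ⊓ perp 2 X := ⟨hw, hcon⟩
        rw [hX, Submodule.mem_bot] at this
        exact hw0 this
      obtain ⟨x, hx, hxw⟩ := h5
      refine ⟨⟨x, hx, hxw⟩, ⟨x, hx, ?_⟩⟩
      rw [hs.skew]
      exact neg_ne_zero.mpr hxw
    intro i
    fin_cases i
    · exact key W hW
    · apply key (perp 2 W)
      rw [perp_perp, inf_comm]
      exact hW
  · intro i j hij
    fin_cases i <;> fin_cases j
    · exact absurd rfl hij
    · intro u hu v hv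
      exact hv u hu
    · intro u hu v hv
      rw [hs.skew, hu v hv, neg_zero]
    · exact absurd rfl hij
  · intro g hg
    rcases h g hg with h6 | h6
    · refine ⟨1, fun i => ?_⟩
      fin_cases i
      · exact h6
      · show (perp 2 W).map _ = perp 2 W
        rw [perp_map 2 W g (hL hg), h6]
    · refine ⟨Equiv.swap 0 1, fun i => ?_⟩
      fin_cases i
      · exact h6
      · show (perp 2 W).map _ = W
        rw [perp_map 2 W g (hL hg), h6, perp_perp]

end Cfsg.Agent.Lib.Helper66.ASP4
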