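import Cfsg.Agent.Lib.Helper66.ASP4.Defs

set_option autoImplicit false

namespace Cfsg.Agent.Lib.Helper66.ASP4

open Cfsg Cfsg.Geo Cfsg.Agent.Lib.Helper77.Asch
open scoped MatrixGroups Matrix

variable {F : Type*} [Field F]
variable {ι : Type} [Fintype ι] [DecidableEq ι]

theorem stab_mul_inv (g : GL ι F) (v : ι → F) :
    (g : Matrix ι ι F) *ᵥ (((g⁻¹ : GL ι F) : Matrix ι ι F) *ᵥ v) = v := by
  rw [Matrix.mulVec_mulVec, ← Units.val_mul, mul_inv_cancel, Units.val_one, Matrix.one_mulVec]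

theorem stab_inv_mul (g : GL ι F) (v : ι → F) :
    ((g⁻¹ : GL ι F) : Matrix ι ι F) *ᵥ ((g : Matrix ι ι F) *ᵥ v) = v := by
  rw [Matrix.mulVec_mulVec, ← Units.val_mul, inv_mul_cancel, Units.val_one, Matrix.one_mulVec]

theorem stab_mem (W : Submodule F (ι → F)) (g : GL ι F) :
    g ∈ subspaceStabilizer W ↔ ∀ v, v ∈ W ↔ (g : Matrix ι ι F) *ᵥ v ∈ W := Iff.rfl

/-- STAB (general ι; easy glue between the two ways of saying "invariant"). -/
theorem mem_stab_iff (W : Submodule F (ι → F)) (g : GL ι F) :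
    g ∈ subspaceStabilizer W ↔ W.map (Matrix.toLin' (g : Matrix ι ι F)) = W := by
  rw [stab_mem]
  constructor
  · intro h
    apply le_antisymm
    · rintro _ ⟨x, hx, rfl⟩
      rw [Matrix.toLin'_apply]
      exact (h x).1 hx
    · intro v hv
      refine ⟨((g⁻¹ : GL ι F) : Matrix ι ι F) *ᵥ v, ?_, ?_⟩
      · exact (h _).2 (by rw [stab_mul_inv]; exact hv)
      · rw [Matrix.toLin'_apply, stab_mul_inv]
  · intro h v
    constructor
    · intro hv
      rw [← h]
      exact ⟨v, hv, by rw [Matrix.toLin'_apply]⟩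
    · intro hv
      rw [← h] at hv
      obtain ⟨x, hx, hxv⟩ := hv
      rw [Matrix.toLin'_apply] at hxv
      have := congrArg (fun w => ((g⁻¹ : GL ι F) : Matrix ι ι F) *ᵥ w) hxv
      simp only [stab_inv_mul] at this
      rw [← this]
      exact hx

/-- STAB. A subgroup all of whose elements map W INTO W stabilises W (apply to g⁻¹). -/
theorem le_stab_of_map_le (L : Subgroup (GL ι F)) (W : Submodule F (ι → F))
    (h : ∀ g ∈ L, W.map (Matrix.toLin' (g : Matrix ι ι F)) ≤ W) : L ≤ subspaceStabilizer W := by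
  intro g hg
  rw [stab_mem]
  intro v
  constructor
  · intro hv
    exact h g hg ⟨v, hv, by rw [Matrix.toLin'_apply]⟩
  · intro hv
    have := h g⁻¹ (L.inv_mem hg) ⟨_, hv, rfl⟩
    rw [Matrix.toLin'_apply, stab_inv_mul] at this
    exact this

/-- STAB. unfold ActsIrreducibly. -/
theorem irr_stab (L : Subgroup (GL ι F)) (hL : ActsIrreducibly (matrixSet L)) (W : Submodule F (ι → F))
    (h : L ≤ subspaceStabilizer W) : W = ⊥ ∨ W = ⊤ := by
  apply hL W
  rintro _ ⟨g, hg, rfl⟩
  exact ((mem_stab_iff W g).1 (h hg)).le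

end Cfsg.Agent.Lib.Helper66.ASP4
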