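import Cfsg.Agent.Lib.Helper66.ASP4.Defs
import Cfsg.Agent.Lib.Helper66.ASP4.PERP
import Cfsg.Agent.Lib.Helper66.ASP4.STAB

set_option autoImplicit false

namespace Cfsg.Agent.Lib.Helper66.ASP4

open Cfsg Cfsg.Geo Cfsg.Agent.Lib.Helper77.Asch
open scoped MatrixGroups Matrix

variable {F : Type*} [Field F]
variable {ι : Type} [Fintype ι] [DecidableEq ι]

theorem invpl_line (M : Subgroup (GL ι F)) (hl : NoLine M) (X : Submodule F (ι → F))
    (hX : M ≤ subspaceStabilizer X) : Module.finrank F X ≠ 1 := by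
  intro h1
  obtain ⟨v, hv0, hv⟩ := finrank_eq_one_iff'.mp h1
  have hv0' : (v : ι → F) ≠ 0 := fun h => hv0 (Subtype.ext h)
  apply hl (v : ι → F) hv0'
  intro x hx
  have h2 : (x : Matrix ι ι F) *ᵥ (v : ι → F) ∈ X := ((stab_mem X x).mp (hX hx) v).mp v.2
  obtain ⟨c, hc⟩ := hv ⟨_, h2⟩
  exact ⟨c, (congrArg Subtype.val hc).symm⟩

theorem invpl_finrank : Module.finrank F (Fin 2 ⊕ Fin 2 → F) = 4 := by
  rw [Module.finrank_fintype_fun_eq_card]
  simp

theorem invpl_perp_stab (m : ℕ) (M : Subgroup (GL (Fin m ⊕ Fin m) F)) (hM : M ≤ spGL m F)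
    (W : Submodule F (Fin m ⊕ Fin m → F)) (hW : M ≤ subspaceStabilizer W) :
    M ≤ subspaceStabilizer (perp m W) := by
  intro x hx
  rw [mem_stab_iff, perp_map m W x (hM hx), (mem_stab_iff W x).mp (hW hx)]

theorem invpl_inf_stab (M : Subgroup (GL ι F)) (X Y : Submodule F (ι → F))
    (hX : M ≤ subspaceStabilizer X) (hY : M ≤ subspaceStabilizer Y) :
    M ≤ subspaceStabilizer (X ⊓ Y) := by
  intro x hx
  rw [stab_mem]
  intro v
  rw [Submodule.mem_inf, Submodule.mem_inf, (stab_mem X x).mp (hX hx) v,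
    (stab_mem Y x).mp (hY hx) v]

/-- INVPL. -/
theorem inv_plane (M : Subgroup (GL (Fin 2 ⊕ Fin 2) F)) (hM : M ≤ spGL 2 F) (hl : NoLine M)
    (W : Submodule F (Fin 2 ⊕ Fin 2 → F)) (hW : M ≤ subspaceStabilizer W) (h0 : W ≠ ⊥) (h1 : W ≠ ⊤) :
    Module.finrank F W = 2 := by
  have ha : Module.finrank F W ≠ 0 := by
    intro h
    exact h0 (Submodule.finrank_eq_zero.mp h)
  have hb : Module.finrank F W < 4 := by
    have := Submodule.finrank_lt h1
    rwa [invpl_finrank] at this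
  have hc := invpl_line M hl W hW
  have hd := invpl_line M hl (perp 2 W) (invpl_perp_stab 2 M hM W hW)
  have he := perp_finrank 2 W
  omega

/-- INVPL. -/
theorem inv_meet (M : Subgroup (GL (Fin 2 ⊕ Fin 2) F)) (hM : M ≤ spGL 2 F) (hl : NoLine M)
    (X Y : Submodule F (Fin 2 ⊕ Fin 2 → F)) (hX : M ≤ subspaceStabilizer X) (hY : M ≤ subspaceStabilizer Y)
    (h2X : Module.finrank F X = 2) (h2Y : Module.finrank F Y = 2) (hne : X ≠ Y) : X ⊓ Y = ⊥ := by
  by_contra h0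
  have h1 : X ⊓ Y ≠ ⊤ := by
    intro h
    have h3 : Module.finrank F (X ⊓ Y : Submodule F (Fin 2 ⊕ Fin 2 → F)) ≤ Module.finrank F X :=
      Submodule.finrank_mono inf_le_left
    rw [h, finrank_top, invpl_finrank, h2X] at h3
    omega
  have h2 := inv_plane M hM hl (X ⊓ Y) (invpl_inf_stab M X Y hX hY) h0 h1
  have e1 : X ⊓ Y = X := Submodule.eq_of_le_of_finrank_eq inf_le_left (by rw [h2, h2X])
  have e2 : X ⊓ Y = Y := Submodule.eq_of_le_of_finrank_eq inf_le_right (by rw [h2, h2Y])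
  exact hne (e1.symm.trans e2)

end Cfsg.Agent.Lib.Helper66.ASP4
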