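import Cfsg.Agent.Lib.Helper66.ASP4.Defs
import Cfsg.Agent.Lib.Helper66.ASP4.SYMP
import Cfsg.Agent.Lib.Helper66.ASP4.PERP
import Cfsg.Agent.Lib.Helper66.ASP4.STAB
import Cfsg.Agent.Lib.Helper66.ASP4.PRED
import Cfsg.Agent.Lib.Helper66.ASP4.D2
import Cfsg.Agent.Lib.Helper66.ASP4.INVPL

set_option autoImplicit false

namespace Cfsg.Agent.Lib.Helper66.ASP4

open Cfsg Cfsg.Geo Cfsg.Agent.Lib.Helper77.Asch
open scoped MatrixGroups Matrix

variable {F : Type*} [Field F]
variable {ι : Type} [Fintype ι] [DecidableEq ι]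

/-- a line lies in its own orthogonal complement -/
theorem c1_line_le_perp (m : ℕ) (X : Submodule F (Fin m ⊕ Fin m → F)) (h1 : Module.finrank F X = 1) :
    X ≤ perp m X := by
  have hs := symp_isSymplectic (F := F) m
  obtain ⟨v, -, hv⟩ := finrank_eq_one_iff'.mp h1
  intro u hu w hw
  obtain ⟨a, ha⟩ := hv ⟨u, hu⟩
  obtain ⟨b, hb⟩ := hv ⟨w, hw⟩
  have ha' : a • (v : Fin m ⊕ Fin m → F) = u := congrArg Subtype.val ha
  have hb' : b • (v : Fin m ⊕ Fin m → F) = w := congrArg Subtype.val hb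
  rw [← ha', ← hb', hs.bilinear.smul_left, hs.bilinear.smul_right, hs.alternating, mul_zero, mul_zero]

/-- C1. -/
theorem reducible_case (H : Subgroup (GL (Fin 2 ⊕ Fin 2) F)) (hH : H ≤ spGL 2 F)
    (hred : ¬ ActsIrreducibly (matrixSet H)) :
    (∃ W : Submodule F (Fin 2 ⊕ Fin 2 → F), W ≠ ⊥ ∧ IsTotallySingularFor (sympForm 2 F) W ∧
      H ≤ subspaceStabilizer W) ∨ Out2 H := by
  obtain ⟨W, h0, h1, hW⟩ := red H hred
  by_cases hR : W ⊓ perp 2 W = ⊥
  · right
    have ha : Module.finrank F W ≠ 0 := fun h => h0 (Submodule.finrank_eq_zero.mp h)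
    have hb : Module.finrank F W < 4 := by
      have := Submodule.finrank_lt h1
      rwa [invpl_finrank] at this
    have hc : Module.finrank F W ≠ 1 := by
      intro h
      have h2 := c1_line_le_perp 2 W h
      rw [inf_eq_left.mpr h2] at hR
      exact h0 hR
    have he := perp_finrank 2 W
    have hd : Module.finrank F (perp 2 W) ≠ 1 := by
      intro h
      have h2 := c1_line_le_perp 2 (perp 2 W) h
      rw [perp_perp] at h2
      rw [inf_eq_right.mpr h2] at hR
      rw [hR, finrank_bot] at h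
      omega
    have h2 : Module.finrank F W = 2 := by omega
    exact out2_of_plane H hH W hR h2 (fun g hg => Or.inl ((mem_stab_iff W g).mp (hW hg)))
  · left
    refine ⟨W ⊓ perp 2 W, hR, ?_, invpl_inf_stab H _ _ hW (invpl_perp_stab 2 H hH W hW)⟩
    intro u hu v hv
    exact hv.2 u hu.1

end Cfsg.Agent.Lib.Helper66.ASP4
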