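import Cfsg.Agent.Lib.Helper66.ASP4.Defs

set_option autoImplicit false

namespace Cfsg.Agent.Lib.Helper66.ASP4

open Cfsg Cfsg.Geo Cfsg.Agent.Lib.Helper77.Asch
open scoped MatrixGroups Matrix

variable {F : Type*} [Field F]
variable {ι : Type} [Fintype ι] [DecidableEq ι]

/-- PNORMC. -/
theorem normalizer_centralizer (N : Subgroup (GL ι F)) (h : GL ι F)
    (hh : ∀ x, x ∈ N ↔ h * x * h⁻¹ ∈ N) :
    h ∈ subalgebraNormalizer (Subalgebra.centralizer F (matrixSet N)) := by
  intro k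
  have e1 : (h : Matrix ι ι F) * ((h⁻¹ : GL ι F) : Matrix ι ι F) = 1 := by
    rw [← Units.val_mul, mul_inv_cancel, Units.val_one]
  have e2 : ((h⁻¹ : GL ι F) : Matrix ι ι F) * (h : Matrix ι ι F) = 1 := by
    rw [← Units.val_mul, inv_mul_cancel, Units.val_one]
  rw [Subalgebra.mem_centralizer_iff, Subalgebra.mem_centralizer_iff]
  constructor
  · rintro hk _ ⟨x, hx, rfl⟩
    -- x = h (h⁻¹ x h) h⁻¹
    have hx' : h⁻¹ * x * h ∈ N := by
      rw [hh]
      simpa [mul_assoc] using hx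
    have h1 := hk _ ⟨_, hx', rfl⟩
    simp only [Units.val_mul] at h1
    obtain ⟨A, hA⟩ : ∃ A, A = (h : Matrix ι ι F) := ⟨_, rfl⟩
    obtain ⟨B, hB⟩ : ∃ B, B = ((h⁻¹ : GL ι F) : Matrix ι ι F) := ⟨_, rfl⟩
    obtain ⟨X, hX⟩ : ∃ X, X = (x : Matrix ι ι F) := ⟨_, rfl⟩
    simp only [← hA, ← hB, ← hX] at h1 e1 e2 ⊢
    calc X * (A * k * B) = A * (B * X * A * k) * B := by
          rw [show A * (B * X * A * k) * B = (A * B) * X * (A * k * B) by simp only [mul_assoc], e1,
            one_mul]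
      _ = A * (k * (B * X * A)) * B := by rw [h1]
      _ = A * k * B * X := by
          rw [show A * (k * (B * X * A)) * B = A * k * B * X * (A * B) by simp only [mul_assoc], e1,
            mul_one]
  · rintro hk _ ⟨x, hx, rfl⟩
    have hx' : h * x * h⁻¹ ∈ N := (hh x).1 hx
    have h1 := hk _ ⟨_, hx', rfl⟩
    simp only [Units.val_mul] at h1
    obtain ⟨A, hA⟩ : ∃ A, A = (h : Matrix ι ι F) := ⟨_, rfl⟩
    obtain ⟨B, hB⟩ : ∃ B, B = ((h⁻¹ : GL ι F) : Matrix ι ι F) := ⟨_, rfl⟩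
    obtain ⟨X, hX⟩ : ∃ X, X = (x : Matrix ι ι F) := ⟨_, rfl⟩
    simp only [← hA, ← hB, ← hX] at h1 e1 e2 ⊢
    calc X * k = B * (A * X * B * (A * k * B)) * A := by
          rw [show B * (A * X * B * (A * k * B)) * A = (B * A) * X * (B * A) * k * (B * A) by
            simp only [mul_assoc], e2, one_mul, mul_one, mul_one]
      _ = B * (A * k * B * (A * X * B)) * A := by rw [h1]
      _ = k * X := by
          rw [show B * (A * k * B * (A * X * B)) * A = (B * A) * k * (B * A) * X * (B * A) by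
            simp only [mul_assoc], e2, one_mul, mul_one, mul_one]

end Cfsg.Agent.Lib.Helper66.ASP4
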