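import Cfsg.Agent.Lib.Helper66.ASP4.ADJ
import Cfsg.Agent.Lib.Helper66.ASP4.PNORMC

set_option autoImplicit false
set_option linter.unusedSectionVars false
set_option linter.unusedVariables false

namespace Cfsg.Agent.Lib.Helper66.ASP4

open Cfsg Cfsg.Geo Cfsg.Agent.Lib.Helper77.Asch
open scoped MatrixGroups Matrix

variable {F : Type*} [Field F]
variable {ι : Type} [Fintype ι] [DecidableEq ι]

/-- CENT -/
theorem centralizer_adj (m : ℕ) (M : Subgroup (GL (Fin m ⊕ Fin m) F)) (hM : M ≤ spGL m F) :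
    ∀ a ∈ Subalgebra.centralizer F (matrixSet M), adjM m a ∈ Subalgebra.centralizer F (matrixSet M) := by
  intro a ha
  rw [Subalgebra.mem_centralizer_iff] at ha ⊢
  rintro _ ⟨x, hx, rfl⟩
  have h1 := ha _ ⟨x⁻¹, inv_mem hx, rfl⟩
  have h2 := congrArg (adjM m) h1
  rw [adj_mul, adj_mul, adj_of_mem m x⁻¹ (hM (inv_mem hx)), inv_inv] at h2
  exact h2.symm

/-- CENT -/
theorem centralizer_norm (L M : Subgroup (GL ι F)) (hn : NormBy L M) :
    L ≤ subalgebraNormalizer (Subalgebra.centralizer F (matrixSet M)) := by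
  intro g hg
  apply normalizer_centralizer
  intro x
  constructor
  · intro hx
    exact hn g hg x hx
  · intro hx
    have := hn g⁻¹ (inv_mem hg) _ hx
    rw [inv_inv] at this
    convert this using 1
    group

end Cfsg.Agent.Lib.Helper66.ASP4
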