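import Mathlib
import Cfsg.Prelude.Def_GeometricClasses
import Cfsg.Agent.Lib.Helper77.Asch.Defs

/-! Ladder ASP4: Aschbacher's theorem for Sp_4(q), q even (definitions). -/

set_option autoImplicit false

namespace Cfsg.Agent.Lib.Helper66.ASP4

open Cfsg Cfsg.Geo
open scoped MatrixGroups Matrix

variable {F : Type*} [Field F]

/-- the adjoint of a matrix for `sympForm m F`: `f (a u) v = f u (adjM m a v)`. -/
def adjM (m : ℕ) (a : Matrix (Fin m ⊕ Fin m) (Fin m ⊕ Fin m) F) :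
    Matrix (Fin m ⊕ Fin m) (Fin m ⊕ Fin m) F :=
  -(Matrix.J (Fin m) F * aᵀ * Matrix.J (Fin m) F)

/-- the orthogonal complement of a subspace for `sympForm m F`. -/
def perp (m : ℕ) (W : Submodule F (Fin m ⊕ Fin m → F)) : Submodule F (Fin m ⊕ Fin m → F) where
  carrier := {v | ∀ w ∈ W, sympForm m F w v = 0}
  add_mem' {a b} ha hb := by
    intro w hw
    have h1 := ha w hw
    have h2 := hb w hw
    simp only [sympForm, Matrix.mulVec_add, dotProduct_add] at h1 h2 ⊢
    rw [h1, h2, add_zero]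
  zero_mem' := by
    intro w _
    simp [sympForm]
  smul_mem' c a ha := by
    intro w hw
    have h1 := ha w hw
    simp only [sympForm, Matrix.mulVec_smul, dotProduct_smul] at h1 ⊢
    rw [h1, smul_zero]

/-- `L` stabilises a decomposition into two orthogonal non-degenerate planes. -/
def Out2 (L : Subgroup (GL (Fin 2 ⊕ Fin 2) F)) : Prop :=
  ∃ D : Fin 2 → Submodule F (Fin 2 ⊕ Fin 2 → F),
    IsNondegenerateMDecomposition (sympForm 2 F) 2 D ∧ L ≤ decompositionStabilizer D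

/-- `L` normalises a self-adjoint quadratic extension field. -/
def Out3 (L : Subgroup (GL (Fin 2 ⊕ Fin 2) F)) : Prop :=
  ∃ K : Subalgebra F (Matrix (Fin 2 ⊕ Fin 2) (Fin 2 ⊕ Fin 2) F), IsFieldSubalgebra 2 K ∧
    IsSelfAdjointFor (sympForm 2 F) K ∧
    (∀ k ∈ K, ∀ v : (Fin 2 ⊕ Fin 2 → F), (sympForm 2 F) (Matrix.mulVec k v) v = 0) ∧
    L ≤ subalgebraNormalizer K

/-- `L` fixes a quadratic form whose polar form is the symplectic form. -/
def Out5 (m : ℕ) (L : Subgroup (GL (Fin m ⊕ Fin m) F)) : Prop :=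
  ∃ Q : (Fin m ⊕ Fin m → F) → F, IsNondegenerateQuadraticForm Q ∧
    (∀ u v : (Fin m ⊕ Fin m → F), QuadraticMap.polar Q u v = (sympForm m F) u v) ∧
    FixesQuadForm (matrixSet L) Q

/-- no non-zero vector is fixed by all of `M`. -/
def NoFix {ι : Type} [Fintype ι] [DecidableEq ι] (M : Subgroup (GL ι F)) : Prop :=
  ∀ v : ι → F, (∀ x ∈ M, (x : Matrix ι ι F) *ᵥ v = v) → v = 0

/-- no line is invariant under `M`. -/
def NoLine {ι : Type} [Fintype ι] [DecidableEq ι] (M : Subgroup (GL ι F)) : Prop :=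
  ∀ v : ι → F, v ≠ 0 → ¬ ∀ x ∈ M, ∃ c : F, (x : Matrix ι ι F) *ᵥ v = c • v

end Cfsg.Agent.Lib.Helper66.ASP4
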