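import Cfsg.Agent.Lib.Helper66.ASP4.Defs

set_option autoImplicit false
set_option linter.unusedSectionVars false
set_option linter.unusedVariables false

namespace Cfsg.Agent.Lib.Helper66.ASP4

open Cfsg Cfsg.Geo Cfsg.Agent.Lib.Helper77.Asch
open scoped MatrixGroups Matrix

variable {F : Type*} [Field F]
variable {ι : Type} [Fintype ι] [DecidableEq ι]

/-- FIX0 -/
theorem noFix (L M : Subgroup (GL ι F)) (hirr : ActsIrreducibly (matrixSet L)) (hn : NormBy L M) (hM : M ≠ ⊥) :
    NoFix M := by
  let W : Submodule F (ι → F) :=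
    { carrier := {v | ∀ x ∈ M, (x : Matrix ι ι F) *ᵥ v = v}
      add_mem' := by
        intro a b ha hb x hx
        rw [Matrix.mulVec_add, ha x hx, hb x hx]
      zero_mem' := by
        intro x _
        rw [Matrix.mulVec_zero]
      smul_mem' := by
        intro c a ha x hx
        rw [Matrix.mulVec_smul, ha x hx] }
  have hW : ∀ s ∈ matrixSet L, W.map (Matrix.toLin' s) ≤ W := by
    rintro _ ⟨g, hg, rfl⟩ _ ⟨v, hv, rfl⟩ x hx
    have h1 : g⁻¹ * x * g ∈ M := by
      have := hn g⁻¹ (inv_mem hg) x hx
      rwa [inv_inv] at this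
    have h2 := hv _ h1
    rw [Matrix.toLin'_apply, Matrix.mulVec_mulVec]
    have h3 : (x : Matrix ι ι F) * (g : Matrix ι ι F) = (g : Matrix ι ι F) * ((g⁻¹ * x * g : GL ι F) : Matrix ι ι F) := by
      rw [← Units.val_mul, ← Units.val_mul]
      congr 1
      group
    rw [h3, ← Matrix.mulVec_mulVec, h2]
  rcases hirr W hW with h | h
  · intro v hv
    have : v ∈ W := hv
    rw [h] at this
    exact (Submodule.mem_bot F).1 this
  · exfalso
    apply hM
    rw [Subgroup.eq_bot_iff_forall]
    intro x hx
    apply Units.ext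
    rw [Units.val_one]
    apply Matrix.toLin'.injective
    apply LinearMap.ext
    intro v
    have : v ∈ W := by rw [h]; exact Submodule.mem_top
    rw [Matrix.toLin'_apply, this x hx, Matrix.toLin'_one, LinearMap.id_apply]

end Cfsg.Agent.Lib.Helper66.ASP4
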