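import Cfsg.Agent.Lib.Helper66.ASP4.ALT
import Cfsg.Agent.Lib.Helper66.ASP4.PDEG

set_option autoImplicit false

namespace Cfsg.Agent.Lib.Helper66.ASP4

open Cfsg Cfsg.Geo Cfsg.Agent.Lib.Helper77.Asch
open scoped MatrixGroups Matrix

variable {F : Type*} [Field F]
variable {ι : Type} [Fintype ι] [DecidableEq ι]

/-- a self-adjoint field subalgebra cannot have the dimension of the whole space -/
theorem fld3_ne [Finite F] [CharP F 2] (m r : ℕ) (hm : 0 < m)
    (K : Subalgebra F (Matrix (Fin m ⊕ Fin m) (Fin m ⊕ Fin m) F)) (hK : IsFieldSubalgebra r K)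
    (hsa : ∀ k ∈ K, adjM m k = k) : r ≠ 2 * m := by
  intro hr
  let i0 : Fin m ⊕ Fin m := Sum.inl ⟨0, hm⟩
  let v : Fin m ⊕ Fin m → F := Pi.single i0 1
  have hv : v ≠ 0 := by
    intro h
    have := congrFun h i0
    simp [v] at this
  let φ : K →ₗ[F] (Fin m ⊕ Fin m → F) :=
    { toFun := fun k => (k : Matrix (Fin m ⊕ Fin m) (Fin m ⊕ Fin m) F) *ᵥ v
      map_add' := fun a b => by simp [Matrix.add_mulVec]
      map_smul' := fun c a => by simp [Matrix.smul_mulVec] }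
  have hinj : Function.Injective φ := by
    rw [← LinearMap.ker_eq_bot, LinearMap.ker_eq_bot']
    intro k hk
    by_contra hne
    have hne' : (k : Matrix (Fin m ⊕ Fin m) (Fin m ⊕ Fin m) F) ≠ 0 := fun h => hne (Subtype.ext h)
    obtain ⟨y, hy, hky⟩ := hK.inv k k.2 hne'
    have hyk : y * (k : Matrix (Fin m ⊕ Fin m) (Fin m ⊕ Fin m) F) = 1 := by
      rw [← hK.comm k k.2 y hy]; exact hky
    apply hv
    have h1 : (k : Matrix (Fin m ⊕ Fin m) (Fin m ⊕ Fin m) F) *ᵥ v = 0 := hk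
    calc v = (y * (k : Matrix (Fin m ⊕ Fin m) (Fin m ⊕ Fin m) F)) *ᵥ v := by
          rw [hyk, Matrix.one_mulVec]
      _ = y *ᵥ ((k : Matrix (Fin m ⊕ Fin m) (Fin m ⊕ Fin m) F) *ᵥ v) := by
          rw [Matrix.mulVec_mulVec]
      _ = 0 := by rw [h1, Matrix.mulVec_zero]
  have hfr : Module.finrank F K = Module.finrank F (Fin m ⊕ Fin m → F) := by
    rw [hK.finrank_eq, hr, Module.finrank_fintype_fun_eq_card, Fintype.card_sum, Fintype.card_fin]
    ring
  have hsurj : Function.Surjective φ :=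
    (LinearMap.injective_iff_surjective_of_finrank_eq_finrank hfr).1 hinj
  obtain ⟨x, hx⟩ := ((symp_isSymplectic (F := F) m).nondegenerate v hv).1
  obtain ⟨a, rfl⟩ := hsurj x
  exact hx (alt_of_selfadjoint m r K hK hsa a a.2 v)

/-- FLD3. -/
theorem out3_of_field [Finite F] [CharP F 2] (L : Subgroup (GL (Fin 2 ⊕ Fin 2) F)) (r : ℕ)
    (K : Subalgebra F (Matrix (Fin 2 ⊕ Fin 2) (Fin 2 ⊕ Fin 2) F)) (hK : IsFieldSubalgebra r K) (hr : r ≠ 1)
    (hsa : ∀ k ∈ K, adjM 2 k = k) (hn : L ≤ subalgebraNormalizer K) : Out3 L := by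
  have h1 : r ∣ 4 := by
    have := deg_dvd r K hK
    simpa using this
  have h4 : r ≠ 4 := fld3_ne 2 r (by norm_num) K hK hsa
  have hle : r ≤ 4 := Nat.le_of_dvd (by norm_num) h1
  have h2 : r = 2 := by
    interval_cases r
    · simp at h1
    · exact absurd rfl hr
    · rfl
    · norm_num at h1
    · exact absurd rfl h4
  subst h2
  refine ⟨K, hK, ?_, ?_, hn⟩
  · intro k hk u v
    rw [adj_spec, hsa k hk]
  · intro k hk v
    exact alt_of_selfadjoint 2 2 K hK hsa k hk v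

end Cfsg.Agent.Lib.Helper66.ASP4
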