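import Cfsg.Agent.Lib.Helper66.ASP4.STAB

set_option autoImplicit false

namespace Cfsg.Agent.Lib.Helper66.ASP4

open Cfsg Cfsg.Geo Cfsg.Agent.Lib.Helper77.Asch
open scoped MatrixGroups Matrix

variable {F : Type*} [Field F]
variable {ι : Type} [Fintype ι] [DecidableEq ι]

/-- A group permuting a pair: the commutator subgroup fixes both members. -/
theorem g2_core {G X : Type*} [Group G] (act : G → X → X) (h1 : ∀ z, act 1 z = z)
    (hm : ∀ a b z, act (a * b) z = act a (act b z)) (E : Fin 2 → X) (N : Subgroup G)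
    (hN : ∀ x ∈ N, ∃ σ : Equiv.Perm (Fin 2), ∀ i, act x (E i) = E (σ i)) :
    ∀ x ∈ ⁅N, N⁆, act x (E 0) = E 0 := by
  have hinv : ∀ (a : G) (σ : Equiv.Perm (Fin 2)), (∀ i, act a (E i) = E (σ i)) →
      ∀ i, act a⁻¹ (E i) = E (σ⁻¹ i) := by
    intro a σ ha i
    have h : act a (E (σ⁻¹ i)) = E i := by
      rw [ha]
      simp
    rw [← h, ← hm, inv_mul_cancel, h1]
  let S : Subgroup G :=
    { carrier := {x | act x (E 0) = E 0}
      mul_mem' := by
        intro a b ha hb
        show act (a * b) (E 0) = E 0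
        rw [hm, hb, ha]
      one_mem' := h1 _
      inv_mem' := by
        intro a ha
        show act a⁻¹ (E 0) = E 0
        have ha' : act a (E 0) = E 0 := ha
        calc act a⁻¹ (E 0) = act a⁻¹ (act a (E 0)) := by rw [ha']
          _ = E 0 := by rw [← hm, inv_mul_cancel, h1] }
  have hle : ⁅N, N⁆ ≤ S := by
    rw [Subgroup.commutator_le]
    intro a ha b hb
    obtain ⟨σ, hσ⟩ := hN a ha
    obtain ⟨τ, hτ⟩ := hN b hb
    show act (a * b * a⁻¹ * b⁻¹) (E 0) = E 0
    have e : ∀ σ τ : Equiv.Perm (Fin 2), σ (τ (σ⁻¹ (τ⁻¹ 0))) = 0 := by decide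
    rw [hm, hm, hm, hinv b τ hτ, hinv a σ hσ, hτ, hσ, e]
  intro x hx
  exact hle hx

/-- G2 (general ι). -/
theorem perfect_not_decomp (N : Subgroup (GL ι F)) (hp : ⁅N, N⁆ = N) (hirr : ActsIrreducibly (matrixSet N))
    (k : ℕ) (D : Fin 2 → Submodule F (ι → F)) (hD : IsMDecomposition k D) (h : N ≤ decompositionStabilizer D) :
    False := by
  have hle : N ≤ subspaceStabilizer (D 0) := by
    intro x hx
    rw [mem_stab_iff]
    refine g2_core (G := GL ι F) (X := Submodule F (ι → F))
      (fun g W => W.map (Matrix.toLin' (g : Matrix ι ι F))) ?_ ?_ D N ?_ x (by rw [hp]; exact hx)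
    · intro z
      simp
    · intro a b z
      show z.map _ = (z.map _).map _
      rw [Units.val_mul, Matrix.toLin'_mul, Submodule.map_comp]
    · intro y hy
      exact h hy
  rcases irr_stab N hirr (D 0) hle with h0 | h1
  · have h2 := hD.finrank_eq 0
    rw [h0, finrank_bot] at h2
    have := hD.pos
    omega
  · have hdis : Disjoint (D 1) (D 0) := hD.indep.pairwiseDisjoint (by decide)
    rw [h1, disjoint_top] at hdis
    have h2 := hD.finrank_eq 1
    rw [hdis, finrank_bot] at h2
    have := hD.pos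
    omega

end Cfsg.Agent.Lib.Helper66.ASP4
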