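import Cfsg.Agent.Lib.Helper66.ASP4.G2

set_option autoImplicit false

namespace Cfsg.Agent.Lib.Helper66.ASP4

open Cfsg Cfsg.Geo Cfsg.Agent.Lib.Helper77.Asch
open scoped MatrixGroups Matrix

variable {F : Type*} [Field F]
variable {ι : Type} [Fintype ι] [DecidableEq ι]

/-- conjugation of a matrix by an invertible matrix. -/
def g3c (x : GL ι F) (z : Matrix ι ι F) : Matrix ι ι F :=
  (x : Matrix ι ι F) * z * ((x⁻¹ : GL ι F) : Matrix ι ι F)

theorem g3c_one (z : Matrix ι ι F) : g3c (1 : GL ι F) z = z := by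
  simp [g3c]

theorem g3c_mul (a b : GL ι F) (z : Matrix ι ι F) : g3c (a * b) z = g3c a (g3c b z) := by
  simp [g3c, mul_assoc, mul_inv_rev]

theorem g3c_prod (x : GL ι F) (y z : Matrix ι ι F) : g3c x (y * z) = g3c x y * g3c x z := by
  unfold g3c
  have h : ((x⁻¹ : GL ι F) : Matrix ι ι F) * (x : Matrix ι ι F) = 1 := by
    rw [← Units.val_mul, inv_mul_cancel, Units.val_one]
  calc (x : Matrix ι ι F) * (y * z) * ((x⁻¹ : GL ι F) : Matrix ι ι F)
      = (x : Matrix ι ι F) * y * 1 * z * ((x⁻¹ : GL ι F) : Matrix ι ι F) := by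
        simp only [mul_one, mul_assoc]
    _ = _ := by rw [← h]; simp only [mul_assoc]

theorem g3c_add (x : GL ι F) (y z : Matrix ι ι F) : g3c x (y + z) = g3c x y + g3c x z := by
  simp [g3c, mul_add, add_mul]

theorem g3c_sub (x : GL ι F) (y z : Matrix ι ι F) : g3c x (y - z) = g3c x y - g3c x z := by
  simp [g3c, mul_sub, sub_mul]

theorem g3c_smul (x : GL ι F) (c : F) (z : Matrix ι ι F) : g3c x (c • z) = c • g3c x z := by
  simp [g3c]

theorem g3c_id (x : GL ι F) : g3c x (1 : Matrix ι ι F) = 1 := by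
  unfold g3c
  rw [mul_one, ← Units.val_mul, mul_inv_cancel, Units.val_one]

theorem g3c_fix (x : GL ι F) (z : Matrix ι ι F) (h : g3c x z = z) :
    z * (x : Matrix ι ι F) = (x : Matrix ι ι F) * z := by
  have h1 : ((x⁻¹ : GL ι F) : Matrix ι ι F) * (x : Matrix ι ι F) = 1 := by
    rw [← Units.val_mul, inv_mul_cancel, Units.val_one]
  calc z * (x : Matrix ι ι F) = g3c x z * (x : Matrix ι ι F) := by rw [h]
    _ = (x : Matrix ι ι F) * z := by
      unfold g3c
      rw [mul_assoc, h1, mul_one]

/-- G3 (general ι). -/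
theorem perfect_not_field (N : Subgroup (GL ι F)) (hp : ⁅N, N⁆ = N)
    (habs : ActsAbsolutelyIrreducibly (matrixSet N)) (K : Subalgebra F (Matrix ι ι F))
    (hK : IsFieldSubalgebra 2 K) (h : N ≤ subalgebraNormalizer K) : False := by
  classical
  obtain ⟨k, hkK, hk⟩ : ∃ k ∈ K, ∀ c : F, k ≠ c • (1 : Matrix ι ι F) := by
    by_contra hcon
    push Not at hcon
    have hle : Subalgebra.toSubmodule K ≤ Submodule.span F {(1 : Matrix ι ι F)} := by
      intro y hy
      obtain ⟨c, hc⟩ := hcon y hy
      rw [hc]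
      exact Submodule.smul_mem _ _ (Submodule.subset_span rfl)
    have h1 := Submodule.finrank_mono hle
    have h2 : Module.finrank F (Submodule.span F {(1 : Matrix ι ι F)}) ≤ 1 :=
      (finrank_span_le_card _).trans (by simp)
    have h3 : Module.finrank F (Subalgebra.toSubmodule K) = 2 := hK.finrank_eq
    omega
  have hli : LinearIndependent F ![(1 : Matrix ι ι F), k] := by
    rw [LinearIndependent.pair_iff]
    intro s t hst
    have ht : t = 0 := by
      by_contra ht
      apply hk (-(t⁻¹ * s))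
      have h1 : t • k = -(s • (1 : Matrix ι ι F)) := by
        rw [eq_neg_iff_add_eq_zero, add_comm]; exact hst
      calc k = t⁻¹ • (t • k) := by rw [smul_smul, inv_mul_cancel₀ ht, one_smul]
        _ = _ := by rw [h1, smul_neg, smul_smul, neg_smul]
    subst ht
    rw [zero_smul, add_zero] at hst
    refine ⟨?_, rfl⟩
    by_contra hs
    have h10 : (1 : Matrix ι ι F) = 0 := by
      have := congrArg (fun z => s⁻¹ • z) hst
      simpa [smul_smul, inv_mul_cancel₀ hs] using this
    apply hk 0
    rw [zero_smul, ← mul_one k, h10, mul_zero]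
  have hspan : Submodule.span F (Set.range ![(1 : Matrix ι ι F), k]) = Subalgebra.toSubmodule K := by
    apply Submodule.eq_of_le_of_finrank_eq
    · rw [Submodule.span_le]
      rintro _ ⟨i, rfl⟩
      fin_cases i
      · exact K.one_mem
      · exact hkK
    · rw [finrank_span_eq_card hli]
      have h3 : Module.finrank F (Subalgebra.toSubmodule K) = 2 := hK.finrank_eq
      rw [h3]
      simp
  obtain ⟨b, a, hab⟩ : ∃ b a : F, b • (1 : Matrix ι ι F) + a • k = k * k := by
    have h1 : k * k ∈ Submodule.span F (Set.range ![(1 : Matrix ι ι F), k]) := by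
      rw [hspan]; exact K.mul_mem hkK hkK
    simp only [Matrix.range_cons, Matrix.range_empty, Set.union_empty, Set.singleton_union] at h1
    exact Submodule.mem_span_pair.1 h1
  -- no zero divisors
  have hnz : ∀ u ∈ K, ∀ v : Matrix ι ι F, u * v = 0 → u = 0 ∨ v = 0 := by
    intro u hu v huv
    by_cases hu0 : u = 0
    · exact Or.inl hu0
    · right
      obtain ⟨w, hw, huw⟩ := hK.inv u hu hu0
      have hwu : w * u = 1 := by rw [hK.comm w hw u hu, huw]
      calc v = (w * u) * v := by rw [hwu, one_mul]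
        _ = 0 := by rw [mul_assoc, huv, mul_zero]
  have hconj : ∀ x ∈ N, g3c x k = k ∨ g3c x k = a • (1 : Matrix ι ι F) - k := by
    intro x hx
    have hk' : g3c x k ∈ K := ((h hx) k).1 hkK
    have hq : b • (1 : Matrix ι ι F) + a • g3c x k = g3c x k * g3c x k := by
      rw [← g3c_prod, ← hab, g3c_add, g3c_smul, g3c_smul, g3c_id]
    have hc := hK.comm _ hk' k hkK
    have hz : (g3c x k - k) * (g3c x k - (a • (1 : Matrix ι ι F) - k)) = 0 := by
      have e : (g3c x k - k) * (g3c x k - (a • (1 : Matrix ι ι F) - k))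
          = g3c x k * g3c x k - k * k + (g3c x k * k - k * g3c x k) - (a • g3c x k - a • k) := by
        simp only [sub_mul, mul_sub, mul_smul_comm, mul_one, smul_sub]
        abel
      rw [e, ← hq, ← hab, hc]
      abel
    rcases hnz _ (K.sub_mem hk' hkK) _ hz with h1 | h1
    · exact Or.inl (sub_eq_zero.1 h1)
    · exact Or.inr (sub_eq_zero.1 h1)
  have hfix : ∀ x ∈ N, g3c x k = k := by
    intro x hx
    refine g2_core (G := GL ι F) (X := Matrix ι ι F) g3c g3c_one g3c_mul
      ![k, a • (1 : Matrix ι ι F) - k] N ?_ x (by rw [hp]; exact hx)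
    intro y hy
    rcases hconj y hy with h1 | h1
    · refine ⟨1, fun i => ?_⟩
      fin_cases i
      · simpa using h1
      · simp [g3c_sub, g3c_smul, g3c_id, h1]
    · refine ⟨Equiv.swap 0 1, fun i => ?_⟩
      fin_cases i
      · simpa using h1
      · simp [g3c_sub, g3c_smul, g3c_id, h1]
  obtain ⟨c, hc⟩ := habs.2 k (by
    rintro _ ⟨x, hx, rfl⟩
    exact g3c_fix x k (hfix x hx))
  exact hk c hc

end Cfsg.Agent.Lib.Helper66.ASP4
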