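import Cfsg.Agent.Lib.Helper66.ASP4.SYMP
import Cfsg.Agent.Lib.Helper66.ASP4.PERP
import Cfsg.Agent.Lib.Helper66.ASP4.STAB

/-! Ladder ASP4, rung GRAPH. -/

set_option autoImplicit false

namespace Cfsg.Agent.Lib.Helper66.ASP4

open Cfsg Cfsg.Geo Cfsg.Agent.Lib.Helper77.Asch
open scoped MatrixGroups Matrix

variable {F : Type*} [Field F]

theorem graph_perp_stab (m : ℕ) (M : Subgroup (GL (Fin m ⊕ Fin m) F)) (hM : M ≤ spGL m F)
    (W : Submodule F (Fin m ⊕ Fin m → F)) (hW : M ≤ subspaceStabilizer W) :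
    M ≤ subspaceStabilizer (perp m W) := by
  intro x hx
  rw [mem_stab_iff, perp_map m W x (hM hx), (mem_stab_iff W x).mp (hW hx)]

/-- the projections of a basis of `X` pair non-trivially -/
theorem graph_ne (U U' X : Submodule F (Fin 2 ⊕ Fin 2 → F)) (hc : IsCompl U U')
    (hU2 : Module.finrank F U = 2) (hX2 : Module.finrank F X = 2) (hXU' : X ⊓ U' = ⊥)
    (hnd : U ⊓ perp 2 U = ⊥) (bX : Module.Basis (Fin 2) F X) :
    sympForm 2 F (U.projectionOnto U' hc (bX 0 : Fin 2 ⊕ Fin 2 → F) : Fin 2 ⊕ Fin 2 → F)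
      (U.projectionOnto U' hc (bX 1 : Fin 2 ⊕ Fin 2 → F) : Fin 2 ⊕ Fin 2 → F) ≠ 0 := by
  have hS := symp_isSymplectic (F := F) 2
  set π := U.projectionOnto U' hc with hπ
  let φ : X →ₗ[F] U := π.domRestrict X
  have hφ : ∀ x : X, φ x = π (x : Fin 2 ⊕ Fin 2 → F) := fun x => rfl
  have hinj : Function.Injective φ := by
    rw [← LinearMap.ker_eq_bot, LinearMap.ker_eq_bot']
    intro x hx
    rw [hφ, hπ, Submodule.projectionOnto_apply_eq_zero_iff] at hx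
    have : (x : Fin 2 ⊕ Fin 2 → F) ∈ X ⊓ U' := ⟨x.2, hx⟩
    rw [hXU', Submodule.mem_bot] at this
    exact Subtype.ext this
  have hsurj : Function.Surjective φ :=
    (LinearMap.injective_iff_surjective_of_finrank_eq_finrank (by rw [hU2, hX2])).1 hinj
  have ha1 : φ (bX 0) ≠ 0 := by
    intro h0
    exact bX.ne_zero 0 (hinj (by rw [h0, map_zero]))
  have hnp : ((φ (bX 0) : U) : Fin 2 ⊕ Fin 2 → F) ∉ perp 2 U := by
    intro h
    have : ((φ (bX 0) : U) : Fin 2 ⊕ Fin 2 → F) ∈ U ⊓ perp 2 U := ⟨(φ (bX 0)).2, h⟩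
    rw [hnd, Submodule.mem_bot] at this
    exact ha1 (Subtype.ext this)
  rw [mem_perp] at hnp
  push Not at hnp
  obtain ⟨w, hw, hwa⟩ := hnp
  obtain ⟨x, hx⟩ := hsurj ⟨w, hw⟩
  have hxr : x = bX.repr x 0 • bX 0 + bX.repr x 1 • bX 1 := by
    conv_lhs => rw [← bX.sum_repr x, Fin.sum_univ_two]
  have hw' : w = bX.repr x 0 • ((φ (bX 0) : U) : Fin 2 ⊕ Fin 2 → F) +
      bX.repr x 1 • ((φ (bX 1) : U) : Fin 2 ⊕ Fin 2 → F) := by
    have h1 := congrArg Subtype.val hx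
    rw [hxr, map_add, map_smul, map_smul] at h1
    exact h1.symm
  intro h0
  apply hwa
  rw [hw', hS.bilinear.add_left, hS.bilinear.smul_left, hS.bilinear.smul_left, hS.alternating,
    hS.skew]
  have h0' : sympForm 2 F ((φ (bX 0) : U) : Fin 2 ⊕ Fin 2 → F) ((φ (bX 1) : U) : Fin 2 ⊕ Fin 2 → F) = 0 := h0
  rw [h0']
  ring

theorem exists_ts_of_third [Finite F] [CharP F 2] (M : Subgroup (GL (Fin 2 ⊕ Fin 2) F)) (hM : M ≤ spGL 2 F)
    (W X : Submodule F (Fin 2 ⊕ Fin 2 → F)) (hW : M ≤ subspaceStabilizer W) (hX : M ≤ subspaceStabilizer X)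
    (h2W : Module.finrank F W = 2) (h2X : Module.finrank F X = 2) (hnd : W ⊓ perp 2 W = ⊥)
    (h1 : X ⊓ W = ⊥) (h2 : X ⊓ perp 2 W = ⊥) :
    ∃ Y : Submodule F (Fin 2 ⊕ Fin 2 → F), Module.finrank F Y = 2 ∧ IsTotallySingularFor (sympForm 2 F) Y ∧
      M ≤ subspaceStabilizer Y := by
  have h20 : (2 : F) = 0 := CharTwo.two_eq_zero
  have hS := symp_isSymplectic (F := F) 2
  set W' := perp 2 W with hW'
  have h2W' : Module.finrank F W' = 2 := by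
    have h := perp_finrank (F := F) 2 W
    rw [h2W] at h
    have h' : 2 + Module.finrank F W' = 2 * 2 := h
    omega
  have hW'st : M ≤ subspaceStabilizer W' := graph_perp_stab 2 M hM W hW
  have hc : IsCompl W W' := by
    refine ⟨disjoint_iff.2 hnd, codisjoint_iff.2 ?_⟩
    apply Submodule.eq_top_of_finrank_eq
    have h3 := Submodule.finrank_sup_add_finrank_inf_eq W W'
    rw [hnd, finrank_bot, h2W, h2W'] at h3
    rw [Module.finrank_fintype_fun_eq_card]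
    simp only [Fintype.card_sum, Fintype.card_fin]
    omega
  set π₁ := W.projectionOnto W' hc with hπ₁
  set π₂ := W'.projectionOnto W hc.symm with hπ₂
  have hsum : ∀ v, ((π₁ v : W) : Fin 2 ⊕ Fin 2 → F) + ((π₂ v : W') : Fin 2 ⊕ Fin 2 → F) = v :=
    fun v => Submodule.projection_add_projection_eq_self hc v
  have hπ : ∀ a ∈ W, ∀ b ∈ W', ((π₁ (a + b) : W) : Fin 2 ⊕ Fin 2 → F) = a ∧
      ((π₂ (a + b) : W') : Fin 2 ⊕ Fin 2 → F) = b := by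
    intro a ha b hb
    constructor
    · rw [map_add, hπ₁, Submodule.projectionOnto_apply_of_mem_left hc ha,
        Submodule.projectionOnto_apply_of_mem_right hc hb, add_zero]
    · rw [map_add, hπ₂, Submodule.projectionOnto_apply_of_mem_left hc.symm hb,
        Submodule.projectionOnto_apply_of_mem_right hc.symm ha, zero_add]
  have horth : ∀ a ∈ W, ∀ b ∈ W', sympForm 2 F a b = 0 := fun a ha b hb => hb a ha
  have horth' : ∀ a ∈ W, ∀ b ∈ W', sympForm 2 F b a = 0 := by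
    intro a ha b hb
    rw [hS.skew, horth a ha b hb, neg_zero]
  let bX := Module.finBasisOfFinrankEq F X h2X
  have hp := graph_ne W W' X hc h2W h2X h2 hnd bX
  have hr := graph_ne W' W X hc.symm h2W' h2X h1 (by rw [hW', perp_perp, inf_comm]; exact hnd) bX
  rw [← hπ₁] at hp
  rw [← hπ₂] at hr
  set p := sympForm 2 F ((π₁ (bX 0 : Fin 2 ⊕ Fin 2 → F) : W) : Fin 2 ⊕ Fin 2 → F)
    ((π₁ (bX 1 : Fin 2 ⊕ Fin 2 → F) : W) : Fin 2 ⊕ Fin 2 → F) with hpd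
  set r := sympForm 2 F ((π₂ (bX 0 : Fin 2 ⊕ Fin 2 → F) : W') : Fin 2 ⊕ Fin 2 → F)
    ((π₂ (bX 1 : Fin 2 ⊕ Fin 2 → F) : W') : Fin 2 ⊕ Fin 2 → F) with hrd
  obtain ⟨s, hs⟩ : ∃ s : F, s * s = p / r := by
    have := Fintype.ofFinite F
    obtain ⟨s, hs⟩ := FiniteField.isSquare_of_char_two (ringChar.eq F 2) (p / r)
    exact ⟨s, hs.symm⟩
  have hs0 : s ≠ 0 := by
    rintro rfl
    rw [zero_mul] at hs
    exact div_ne_zero hp hr hs.symm
  let T : (Fin 2 ⊕ Fin 2 → F) →ₗ[F] (Fin 2 ⊕ Fin 2 → F) :=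
    W.subtype.comp π₁ + s • W'.subtype.comp π₂
  have hT : ∀ v, T v = ((π₁ v : W) : Fin 2 ⊕ Fin 2 → F) + s • ((π₂ v : W') : Fin 2 ⊕ Fin 2 → F) :=
    fun v => rfl
  have hTinj : Function.Injective T := by
    rw [← LinearMap.ker_eq_bot, LinearMap.ker_eq_bot']
    intro v hv
    rw [hT] at hv
    have e1 : ((π₁ v : W) : Fin 2 ⊕ Fin 2 → F) = -(s • ((π₂ v : W') : Fin 2 ⊕ Fin 2 → F)) :=
      eq_neg_of_add_eq_zero_left hv
    have m1 : ((π₁ v : W) : Fin 2 ⊕ Fin 2 → F) ∈ W ⊓ W' :=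
      ⟨(π₁ v).2, by rw [e1]; exact W'.neg_mem (W'.smul_mem _ (π₂ v).2)⟩
    rw [hnd, Submodule.mem_bot] at m1
    rw [m1, zero_add] at hv
    have m2 : ((π₂ v : W') : Fin 2 ⊕ Fin 2 → F) = 0 := (smul_eq_zero.1 hv).resolve_left hs0
    rw [← hsum v, m1, m2, add_zero]
  refine ⟨X.map T, ?_, ?_, ?_⟩
  · exact ((Submodule.equivMapOfInjective T hTinj X).finrank_eq.symm).trans h2X
  · rintro _ ⟨x, hx, rfl⟩ _ ⟨x', hx', rfl⟩
    have key : ∀ y ∈ X, ∃ c0 c1 : F,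
        ((π₁ y : W) : Fin 2 ⊕ Fin 2 → F) = c0 • ((π₁ (bX 0 : Fin 2 ⊕ Fin 2 → F) : W) : Fin 2 ⊕ Fin 2 → F) +
          c1 • ((π₁ (bX 1 : Fin 2 ⊕ Fin 2 → F) : W) : Fin 2 ⊕ Fin 2 → F) ∧
        ((π₂ y : W') : Fin 2 ⊕ Fin 2 → F) = c0 • ((π₂ (bX 0 : Fin 2 ⊕ Fin 2 → F) : W') : Fin 2 ⊕ Fin 2 → F) +
          c1 • ((π₂ (bX 1 : Fin 2 ⊕ Fin 2 → F) : W') : Fin 2 ⊕ Fin 2 → F) := by
      intro y hy
      refine ⟨bX.repr ⟨y, hy⟩ 0, bX.repr ⟨y, hy⟩ 1, ?_⟩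
      have hyr : y = bX.repr ⟨y, hy⟩ 0 • (bX 0 : Fin 2 ⊕ Fin 2 → F) +
          bX.repr ⟨y, hy⟩ 1 • (bX 1 : Fin 2 ⊕ Fin 2 → F) := by
        have := congrArg Subtype.val (bX.sum_repr ⟨y, hy⟩)
        rw [Fin.sum_univ_two] at this
        exact this.symm
      constructor
      · conv_lhs => rw [hyr, map_add, map_smul, map_smul]
        rfl
      · conv_lhs => rw [hyr, map_add, map_smul, map_smul]
        rfl
    obtain ⟨c0, c1, e1, e2⟩ := key x hx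
    obtain ⟨d0, d1, e1', e2'⟩ := key x' hx'
    rw [hT, hT]
    simp only [hS.bilinear.add_left, hS.bilinear.add_right, hS.bilinear.smul_left, hS.bilinear.smul_right]
    rw [horth _ (π₁ x).2 _ (π₂ x').2, horth' _ (π₁ x').2 _ (π₂ x).2, e1, e2, e1', e2']
    simp only [hS.bilinear.add_left, hS.bilinear.add_right, hS.bilinear.smul_left, hS.bilinear.smul_right,
      hS.alternating]
    rw [hS.skew ((π₁ (bX 1 : Fin 2 ⊕ Fin 2 → F) : W) : Fin 2 ⊕ Fin 2 → F),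
      hS.skew ((π₂ (bX 1 : Fin 2 ⊕ Fin 2 → F) : W') : Fin 2 ⊕ Fin 2 → F), ← hpd, ← hrd]
    have hsr : s * s * r = p := by rw [hs]; field_simp
    linear_combination (c0 * d1 - c1 * d0) * hsr + (c0 * d1 - c1 * d0) * p * h20
  · apply le_stab_of_map_le
    rintro g hg _ ⟨_, ⟨x, hx, rfl⟩, rfl⟩
    refine ⟨(g : Matrix (Fin 2 ⊕ Fin 2) (Fin 2 ⊕ Fin 2) F) *ᵥ x, ((stab_mem X g).1 (hX hg) x).1 hx, ?_⟩
    have hgx : (g : Matrix (Fin 2 ⊕ Fin 2) (Fin 2 ⊕ Fin 2) F) *ᵥ x =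
        (g : Matrix (Fin 2 ⊕ Fin 2) (Fin 2 ⊕ Fin 2) F) *ᵥ ((π₁ x : W) : Fin 2 ⊕ Fin 2 → F) +
        (g : Matrix (Fin 2 ⊕ Fin 2) (Fin 2 ⊕ Fin 2) F) *ᵥ ((π₂ x : W') : Fin 2 ⊕ Fin 2 → F) := by
      rw [← Matrix.mulVec_add, hsum]
    obtain ⟨q1, q2⟩ := hπ _ (((stab_mem W g).1 (hW hg) _).1 (π₁ x).2) _
      (((stab_mem W' g).1 (hW'st hg) _).1 (π₂ x).2)
    rw [← hgx] at q1 q2
    rw [hT, q1, q2, Matrix.toLin'_apply, hT, Matrix.mulVec_add, Matrix.mulVec_smul]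

end Cfsg.Agent.Lib.Helper66.ASP4
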