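import Cfsg.Agent.Lib.Helper66.ASP4.Defs
import Cfsg.Agent.Lib.Helper66.ASP4.SYMP
import Cfsg.Agent.Lib.Helper66.ASP4.ADJ
import Cfsg.Agent.Lib.Helper66.ASP4.PERP
import Cfsg.Agent.Lib.Helper66.ASP4.C1

set_option autoImplicit false

namespace Cfsg.Agent.Lib.Helper66.ASP4

open Cfsg Cfsg.Geo Cfsg.Agent.Lib.Helper77.Asch
open scoped MatrixGroups Matrix

variable {F : Type*} [Field F]
variable {ι : Type} [Fintype ι] [DecidableEq ι]

theorem idr_fix (e : Matrix ι ι F) (he : e * e = e) (w : ι → F)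
    (hw : w ∈ LinearMap.range (Matrix.toLin' e)) : e *ᵥ w = w := by
  obtain ⟨u, rfl⟩ := hw
  rw [Matrix.toLin'_apply, Matrix.mulVec_mulVec, he]

theorem idr_range_one_sub (e : Matrix ι ι F) (he : e * e = e) :
    LinearMap.range (Matrix.toLin' (1 - e)) = LinearMap.ker (Matrix.toLin' e) := by
  ext v
  rw [LinearMap.mem_ker, Matrix.toLin'_apply]
  constructor
  · rintro ⟨u, rfl⟩
    rw [Matrix.toLin'_apply, Matrix.mulVec_mulVec, mul_sub, mul_one, he, sub_self, Matrix.zero_mulVec]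
  · intro h
    refine ⟨v, ?_⟩
    rw [Matrix.toLin'_apply, Matrix.sub_mulVec, Matrix.one_mulVec, h, sub_zero]

theorem idr_one_sub_idem (e : Matrix ι ι F) (he : e * e = e) : (1 - e) * (1 - e) = 1 - e := by
  rw [mul_sub, sub_mul, sub_mul, mul_one, one_mul, mul_one, he, sub_self, sub_zero]

theorem idr_one_sub_adj (m : ℕ) (e : Matrix (Fin m ⊕ Fin m) (Fin m ⊕ Fin m) F) (hadj : adjM m e = e) :
    adjM m (1 - e) = 1 - e := by
  have h : (1 - e : Matrix (Fin m ⊕ Fin m) (Fin m ⊕ Fin m) F) = 1 + (-1 : F) • e := by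
    rw [neg_smul, one_smul, sub_eq_add_neg]
  rw [h, adj_add, adj_smul, adj_one, hadj]

/-- IDR. -/
theorem idem_rank_ne_one (m : ℕ) (e : Matrix (Fin m ⊕ Fin m) (Fin m ⊕ Fin m) F) (he : e * e = e)
    (hadj : adjM m e = e) : Module.finrank F (LinearMap.range (Matrix.toLin' e)) ≠ 1 := by
  intro h1
  have hs := symp_isSymplectic (F := F) m
  have hle := c1_line_le_perp m _ h1
  obtain ⟨w, hw0, -⟩ := finrank_eq_one_iff'.mp h1
  have hw0' : (w : Fin m ⊕ Fin m → F) ≠ 0 := fun h => hw0 (Subtype.ext h)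
  obtain ⟨⟨x, hx⟩, -⟩ := hs.nondegenerate _ hw0'
  apply hx
  have h2 : e *ᵥ (w : Fin m ⊕ Fin m → F) = w := idr_fix e he _ w.2
  have h3 := adj_spec m e x (w : Fin m ⊕ Fin m → F)
  rw [hadj, h2] at h3
  rw [← h3]
  exact hle w.2 (e *ᵥ x) ⟨x, by rw [Matrix.toLin'_apply]⟩

/-- IDR. -/
theorem idem_rank_two (e : Matrix (Fin 2 ⊕ Fin 2) (Fin 2 ⊕ Fin 2) F) (he : e * e = e)
    (hadj : adjM 2 e = e) (h0 : e ≠ 0) (h1 : e ≠ 1) :
    Module.finrank F (LinearMap.range (Matrix.toLin' e)) = 2 := by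
  have ha := idem_rank_ne_one 2 e he hadj
  have hb := idem_rank_ne_one 2 (1 - e) (idr_one_sub_idem e he) (idr_one_sub_adj 2 e hadj)
  rw [idr_range_one_sub e he] at hb
  have hc := LinearMap.finrank_range_add_finrank_ker (Matrix.toLin' e)
  rw [invpl_finrank] at hc
  have hd : Module.finrank F (LinearMap.range (Matrix.toLin' e)) ≠ 0 := by
    intro h
    apply h0
    have h2 := Submodule.finrank_eq_zero.mp h
    rw [LinearMap.range_eq_bot] at h2
    exact Matrix.toLin'.injective (by rw [h2, map_zero])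
  have hf : Module.finrank F (LinearMap.ker (Matrix.toLin' e)) ≠ 0 := by
    intro h
    apply h1
    have h2 := Submodule.finrank_eq_zero.mp h
    apply Matrix.toLin'.injective
    apply LinearMap.ext
    intro v
    rw [Matrix.toLin'_one, LinearMap.id_apply]
    have h3 : Matrix.toLin' e v - v ∈ LinearMap.ker (Matrix.toLin' e) := by
      rw [LinearMap.mem_ker, map_sub, Matrix.toLin'_apply, Matrix.toLin'_apply, Matrix.mulVec_mulVec,
        he, sub_self]
    rw [h2, Submodule.mem_bot] at h3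
    exact sub_eq_zero.mp h3
  omega

end Cfsg.Agent.Lib.Helper66.ASP4
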