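import Cfsg.Agent.Lib.Helper66.ASP4.Defs
import Cfsg.Agent.Lib.Helper66.ASP4.ADJ
import Cfsg.Agent.Lib.Helper66.ASP4.IDR

set_option autoImplicit false

namespace Cfsg.Agent.Lib.Helper66.ASP4

open Cfsg Cfsg.Geo Cfsg.Agent.Lib.Helper77.Asch
open scoped MatrixGroups Matrix

variable {F : Type*} [Field F]
variable {ι : Type} [Fintype ι] [DecidableEq ι]

/-- commuting idempotents with the same range are equal -/
theorem ide2_eq_of_range (a b : Matrix ι ι F) (ha : a * a = a) (hb : b * b = b) (hc : a * b = b * a)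
    (hr : LinearMap.range (Matrix.toLin' a) = LinearMap.range (Matrix.toLin' b)) : a = b := by
  have h1 : a * b = b := by
    apply Matrix.toLin'.injective
    apply LinearMap.ext
    intro v
    rw [Matrix.toLin'_apply, Matrix.toLin'_apply, ← Matrix.mulVec_mulVec]
    apply idr_fix a ha
    rw [hr]
    exact ⟨v, by rw [Matrix.toLin'_apply]⟩
  have h2 : b * a = a := by
    apply Matrix.toLin'.injective
    apply LinearMap.ext
    intro v
    rw [Matrix.toLin'_apply, Matrix.toLin'_apply, ← Matrix.mulVec_mulVec]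
    apply idr_fix b hb
    rw [← hr]
    exact ⟨v, by rw [Matrix.toLin'_apply]⟩
  rw [← h2, ← hc, h1]

theorem ide2_range_mul_le (a b : Matrix ι ι F) :
    LinearMap.range (Matrix.toLin' (a * b)) ≤ LinearMap.range (Matrix.toLin' a) := by
  rintro _ ⟨v, rfl⟩
  exact ⟨b *ᵥ v, by rw [Matrix.toLin'_apply, Matrix.toLin'_apply, Matrix.mulVec_mulVec]⟩

/-- IDE2. -/
theorem idem_eq_or (e e' : Matrix (Fin 2 ⊕ Fin 2) (Fin 2 ⊕ Fin 2) F) (he : e * e = e) (he' : e' * e' = e')
    (hadj : adjM 2 e = e) (hadj' : adjM 2 e' = e') (h0 : e ≠ 0) (h1 : e ≠ 1) (h0' : e' ≠ 0) (h1' : e' ≠ 1)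
    (hc : e * e' = e' * e) : e' = e ∨ e' = 1 - e := by
  have hr := idem_rank_two e he hadj h0 h1
  have hr' := idem_rank_two e' he' hadj' h0' h1'
  have hp : (e * e') * (e * e') = e * e' := by
    calc (e * e') * (e * e') = e * (e' * e) * e' := by simp only [mul_assoc]
      _ = e * (e * e') * e' := by rw [hc]
      _ = (e * e) * (e' * e') := by simp only [mul_assoc]
      _ = e * e' := by rw [he, he']
  have hpadj : adjM 2 (e * e') = e * e' := by rw [adj_mul, hadj, hadj', hc]
  by_cases hp0 : e * e' = 0
  · right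
    have h2 : LinearMap.range (Matrix.toLin' e') ≤ LinearMap.range (Matrix.toLin' (1 - e)) := by
      rw [idr_range_one_sub e he]
      rintro _ ⟨v, rfl⟩
      rw [LinearMap.mem_ker, Matrix.toLin'_apply, Matrix.toLin'_apply, Matrix.mulVec_mulVec, hp0,
        Matrix.zero_mulVec]
    have h3 : Module.finrank F (LinearMap.range (Matrix.toLin' (1 - e))) = 2 := by
      rw [idr_range_one_sub e he]
      have := LinearMap.finrank_range_add_finrank_ker (Matrix.toLin' e)
      rw [invpl_finrank] at this
      omega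
    have h4 := Submodule.eq_of_le_of_finrank_eq h2 (by rw [hr', h3])
    apply ide2_eq_of_range e' (1 - e) he' (idr_one_sub_idem e he) _ h4
    rw [mul_sub, sub_mul, mul_one, one_mul, hc]
  · left
    have hp1 : e * e' ≠ 1 := by
      intro h
      apply h1
      calc e = e * (e * e') := by rw [h, mul_one]
        _ = (e * e) * e' := by rw [mul_assoc]
        _ = 1 := by rw [he, h]
    have hrp := idem_rank_two (e * e') hp hpadj hp0 hp1
    have e1 : e * e' = e := by
      apply ide2_eq_of_range _ _ hp he
      · calc e * e' * e = e * (e' * e) := by rw [mul_assoc]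
          _ = e * (e * e') := by rw [hc]
      · exact Submodule.eq_of_le_of_finrank_eq (ide2_range_mul_le e e') (by rw [hrp, hr])
    have e2 : e * e' = e' := by
      apply ide2_eq_of_range _ _ hp he'
      · calc e * e' * e' = e' * e * e' := by rw [hc]
          _ = e' * (e * e') := by rw [mul_assoc]
      · refine Submodule.eq_of_le_of_finrank_eq ?_ (by rw [hrp, hr'])
        rw [hc]
        exact ide2_range_mul_le e' e
    rw [← e2, e1]

end Cfsg.Agent.Lib.Helper66.ASP4
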