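import Cfsg.Agent.Lib.Helper66.ASP4.Defs
import Cfsg.Agent.Lib.Helper66.ASP4.SYMP
import Cfsg.Agent.Lib.Helper66.ASP4.ADJ
import Cfsg.Agent.Lib.Helper66.ASP4.D2
import Cfsg.Agent.Lib.Helper66.ASP4.IDR
import Cfsg.Agent.Lib.Helper66.ASP4.IDE2

set_option autoImplicit false

namespace Cfsg.Agent.Lib.Helper66.ASP4

open Cfsg Cfsg.Geo Cfsg.Agent.Lib.Helper77.Asch
open scoped MatrixGroups Matrix

variable {F : Type*} [Field F]
variable {ι : Type} [Fintype ι] [DecidableEq ι]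

theorem idec_perp_range (m : ℕ) (e : Matrix (Fin m ⊕ Fin m) (Fin m ⊕ Fin m) F) (hadj : adjM m e = e) :
    perp m (LinearMap.range (Matrix.toLin' e)) = LinearMap.ker (Matrix.toLin' e) := by
  have hs := symp_isSymplectic (F := F) m
  ext v
  rw [LinearMap.mem_ker, Matrix.toLin'_apply]
  constructor
  · intro h
    by_contra hne
    obtain ⟨⟨x, hx⟩, -⟩ := hs.nondegenerate _ hne
    apply hx
    have h3 := adj_spec m e x v
    rw [hadj] at h3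
    rw [← h3]
    exact h (e *ᵥ x) ⟨x, by rw [Matrix.toLin'_apply]⟩
  · rintro h _ ⟨x, rfl⟩
    rw [Matrix.toLin'_apply, adj_spec, hadj, h]
    have := hs.bilinear.smul_right 0 x 0
    simpa using this

theorem idec_map_range (g : GL ι F) (e : Matrix ι ι F) :
    (LinearMap.range (Matrix.toLin' e)).map (Matrix.toLin' (g : Matrix ι ι F)) =
      LinearMap.range (Matrix.toLin' ((g : Matrix ι ι F) * e * ((g⁻¹ : GL ι F) : Matrix ι ι F))) := by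
  ext v
  constructor
  · rintro ⟨_, ⟨u, rfl⟩, rfl⟩
    refine ⟨(g : Matrix ι ι F) *ᵥ u, ?_⟩
    rw [Matrix.toLin'_apply, Matrix.toLin'_apply, Matrix.toLin'_apply, Matrix.mulVec_mulVec,
      Matrix.mulVec_mulVec, mul_assoc, ← Units.val_mul, inv_mul_cancel, Units.val_one, mul_one]
  · rintro ⟨u, rfl⟩
    refine ⟨e *ᵥ (((g⁻¹ : GL ι F) : Matrix ι ι F) *ᵥ u), ⟨_, by rw [Matrix.toLin'_apply]⟩, ?_⟩
    rw [Matrix.toLin'_apply, Matrix.toLin'_apply, Matrix.mulVec_mulVec, Matrix.mulVec_mulVec]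

/-- IDEC. -/
theorem out2_of_idem (L : Subgroup (GL (Fin 2 ⊕ Fin 2) F)) (hL : L ≤ spGL 2 F)
    (e : Matrix (Fin 2 ⊕ Fin 2) (Fin 2 ⊕ Fin 2) F) (he : e * e = e) (h0 : e ≠ 0) (h1 : e ≠ 1)
    (hadj : adjM 2 e = e)
    (hc : ∀ g ∈ L, e * ((g : Matrix (Fin 2 ⊕ Fin 2) (Fin 2 ⊕ Fin 2) F) * e * ((g⁻¹ : GL (Fin 2 ⊕ Fin 2) F) : Matrix _ _ F)) =
      ((g : Matrix (Fin 2 ⊕ Fin 2) (Fin 2 ⊕ Fin 2) F) * e * ((g⁻¹ : GL (Fin 2 ⊕ Fin 2) F) : Matrix _ _ F)) * e) : Out2 L := by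
  have hperp := idec_perp_range 2 e hadj
  apply out2_of_plane L hL (LinearMap.range (Matrix.toLin' e))
  · rw [hperp, eq_bot_iff]
    rintro v ⟨hv1, hv2⟩
    rw [SetLike.mem_coe, LinearMap.mem_ker, Matrix.toLin'_apply, idr_fix e he v hv1] at hv2
    exact hv2
  · exact idem_rank_two e he hadj h0 h1
  · intro g hg
    rw [idec_map_range, hperp, ← idr_range_one_sub e he]
    have hgi : ((g⁻¹ : GL (Fin 2 ⊕ Fin 2) F) : Matrix _ _ F) * (g : Matrix (Fin 2 ⊕ Fin 2) (Fin 2 ⊕ Fin 2) F) = 1 := by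
      rw [← Units.val_mul, inv_mul_cancel, Units.val_one]
    have hgi' : (g : Matrix (Fin 2 ⊕ Fin 2) (Fin 2 ⊕ Fin 2) F) * ((g⁻¹ : GL (Fin 2 ⊕ Fin 2) F) : Matrix _ _ F) = 1 := by
      rw [← Units.val_mul, mul_inv_cancel, Units.val_one]
    obtain ⟨e', he'def⟩ : ∃ e', e' = (g : Matrix (Fin 2 ⊕ Fin 2) (Fin 2 ⊕ Fin 2) F) * e *
        ((g⁻¹ : GL (Fin 2 ⊕ Fin 2) F) : Matrix _ _ F) := ⟨_, rfl⟩
    have hback : ((g⁻¹ : GL (Fin 2 ⊕ Fin 2) F) : Matrix _ _ F) * e' * (g : Matrix (Fin 2 ⊕ Fin 2) (Fin 2 ⊕ Fin 2) F) = e := by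
      rw [he'def]
      calc ((g⁻¹ : GL (Fin 2 ⊕ Fin 2) F) : Matrix _ _ F) * ((g : Matrix (Fin 2 ⊕ Fin 2) (Fin 2 ⊕ Fin 2) F) * e *
            ((g⁻¹ : GL (Fin 2 ⊕ Fin 2) F) : Matrix _ _ F)) * (g : Matrix (Fin 2 ⊕ Fin 2) (Fin 2 ⊕ Fin 2) F)
          = (((g⁻¹ : GL (Fin 2 ⊕ Fin 2) F) : Matrix _ _ F) * (g : Matrix (Fin 2 ⊕ Fin 2) (Fin 2 ⊕ Fin 2) F)) * e *
            (((g⁻¹ : GL (Fin 2 ⊕ Fin 2) F) : Matrix _ _ F) * (g : Matrix (Fin 2 ⊕ Fin 2) (Fin 2 ⊕ Fin 2) F)) := by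
            simp only [mul_assoc]
        _ = e := by rw [hgi, one_mul, mul_one]
    have he' : e' * e' = e' := by
      rw [he'def]
      calc (g : Matrix (Fin 2 ⊕ Fin 2) (Fin 2 ⊕ Fin 2) F) * e * ((g⁻¹ : GL (Fin 2 ⊕ Fin 2) F) : Matrix _ _ F) *
            ((g : Matrix (Fin 2 ⊕ Fin 2) (Fin 2 ⊕ Fin 2) F) * e * ((g⁻¹ : GL (Fin 2 ⊕ Fin 2) F) : Matrix _ _ F))
          = (g : Matrix (Fin 2 ⊕ Fin 2) (Fin 2 ⊕ Fin 2) F) * e *
            (((g⁻¹ : GL (Fin 2 ⊕ Fin 2) F) : Matrix _ _ F) * (g : Matrix (Fin 2 ⊕ Fin 2) (Fin 2 ⊕ Fin 2) F)) * e *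
            ((g⁻¹ : GL (Fin 2 ⊕ Fin 2) F) : Matrix _ _ F) := by simp only [mul_assoc]
        _ = (g : Matrix (Fin 2 ⊕ Fin 2) (Fin 2 ⊕ Fin 2) F) * (e * e) * ((g⁻¹ : GL (Fin 2 ⊕ Fin 2) F) : Matrix _ _ F) := by
            rw [hgi, mul_one]; simp only [mul_assoc]
        _ = _ := by rw [he]
    have hadj' : adjM 2 e' = e' := by
      rw [he'def, adj_mul, adj_mul, hadj, adj_of_mem 2 g (hL hg),
        adj_of_mem 2 g⁻¹ ((spGL 2 F).inv_mem (hL hg)), inv_inv, mul_assoc]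
    have h0' : e' ≠ 0 := by
      intro h
      apply h0
      rw [← hback, h, mul_zero, zero_mul]
    have h1' : e' ≠ 1 := by
      intro h
      apply h1
      rw [← hback, h, mul_one, hgi]
    rw [← he'def]
    rcases idem_eq_or e e' he he' hadj hadj' h0 h1 h0' h1' (by rw [he'def]; exact hc g hg) with h | h
    · left; rw [h]
    · right; rw [h]

end Cfsg.Agent.Lib.Helper66.ASP4
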