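import Cfsg.Agent.Lib.Helper66.ASP4.Defs

set_option autoImplicit false
set_option linter.unusedSectionVars false
set_option linter.unusedVariables false

namespace Cfsg.Agent.Lib.Helper66.ASP4

open Cfsg Cfsg.Geo Cfsg.Agent.Lib.Helper77.Asch
open scoped MatrixGroups Matrix

variable {F : Type*} [Field F]
variable {ι : Type} [Fintype ι] [DecidableEq ι]

theorem idem_pow_aux {R : Type*} [Monoid R] [Finite R] (a : R) : ∃ k : ℕ, 0 < k ∧ a ^ k * a ^ k = a ^ k := by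
  obtain ⟨i, j, hij, h⟩ := Finite.exists_ne_map_eq_of_infinite (fun n : ℕ => a ^ (n + 1))
  wlog hlt : i < j generalizing i j
  · exact this j i hij.symm h.symm (by omega)
  obtain ⟨d, rfl⟩ : ∃ d, j = i + d := ⟨j - i, by omega⟩
  have hd : 0 < d := by omega
  -- a^(n+d) = a^n for n ≥ i+1
  have h1 : ∀ n, i + 1 ≤ n → a ^ (n + d) = a ^ n := by
    intro n hn
    obtain ⟨t, rfl⟩ : ∃ t, n = (i + 1) + t := ⟨n - (i + 1), by omega⟩
    rw [show i + 1 + t + d = (i + d + 1) + t by ring, pow_add, ← h, ← pow_add]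
  have h2 : ∀ s n, i + 1 ≤ n → a ^ (n + s * d) = a ^ n := by
    intro s
    induction s with
    | zero => intro n _; simp
    | succ s ih =>
      intro n hn
      rw [show n + (s + 1) * d = (n + s * d) + d by ring, h1 _ (by omega), ih n hn]
  refine ⟨(i + 1) * d, by positivity, ?_⟩
  rw [← pow_add]
  exact h2 (i + 1) ((i + 1) * d) (Nat.le_mul_of_pos_right _ hd)

/-- IDEM -/
theorem exists_idem [Finite F] (A : Subalgebra F (Matrix ι ι F)) (a : Matrix ι ι F) (ha : a ∈ A)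
    (h1 : ¬ IsNilpotent a) (h2 : ¬ IsUnit a) : ∃ e ∈ A, e * e = e ∧ e ≠ 0 ∧ e ≠ 1 := by
  obtain ⟨k, hk, he⟩ := idem_pow_aux a
  refine ⟨a ^ k, pow_mem ha k, he, fun h => h1 ⟨k, h⟩, fun h => h2 ?_⟩
  obtain ⟨t, rfl⟩ : ∃ t, k = t + 1 := ⟨k - 1, by omega⟩
  rw [pow_succ'] at h
  exact IsUnit.of_mul_eq_one _ h

/-- IDEM -/
theorem inv_mem_of_isUnit [Finite F] (A : Subalgebra F (Matrix ι ι F)) (a : Matrix ι ι F) (ha : a ∈ A)
    (h : IsUnit a) : ∃ b ∈ A, a * b = 1 := by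
  obtain ⟨k, hk, he⟩ := idem_pow_aux a
  have hu : IsUnit (a ^ k) := h.pow k
  have h1 : a ^ k = 1 := by
    have := hu.mul_left_cancel (he.trans (mul_one _).symm)
    exact this
  obtain ⟨t, rfl⟩ : ∃ t, k = t + 1 := ⟨k - 1, by omega⟩
  exact ⟨a ^ t, pow_mem ha t, by rw [← pow_succ', h1]⟩

end Cfsg.Agent.Lib.Helper66.ASP4
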