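import Cfsg.Agent.Lib.Helper66.ASP4.Defs
import Cfsg.Agent.Lib.Helper80.AS.CA1

set_option autoImplicit false
set_option linter.unusedSectionVars false
set_option linter.unusedVariables false

namespace Cfsg.Agent.Lib.Helper66.ASP4

open Cfsg Cfsg.Geo Cfsg.Agent.Lib.Helper77.Asch
open scoped MatrixGroups Matrix

variable {F : Type*} [Field F]
variable {ι : Type} [Fintype ι] [DecidableEq ι]

/-- NILP -/
theorem no_nilpotent (H : Subgroup (GL ι F)) (hH : ActsIrreducibly (matrixSet H))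
    (A : Subalgebra F (Matrix ι ι F)) (hc : ∀ x ∈ A, ∀ y ∈ A, x * y = y * x)
    (hn : H ≤ subalgebraNormalizer A) (a : Matrix ι ι F) (ha : a ∈ A) (hnil : IsNilpotent a) : a = 0 := by
  obtain ⟨k, hk⟩ := hnil
  exact Cfsg.Agent.Lib.Helper80.AS.no_nilpotent H hH A hc hn a ha k hk

end Cfsg.Agent.Lib.Helper66.ASP4
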