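import Cfsg.Agent.Lib.Helper66.ASP4.Defs

set_option autoImplicit false
set_option linter.unusedSectionVars false
set_option linter.unusedVariables false

namespace Cfsg.Agent.Lib.Helper66.ASP4

open Cfsg Cfsg.Geo Cfsg.Agent.Lib.Helper77.Asch
open scoped MatrixGroups Matrix

variable {F : Type*} [Field F]
variable {ι : Type} [Fintype ι] [DecidableEq ι]

open scoped commutatorElement

theorem noline_inv (a : GL ι F) (v : ι → F) (hv : v ≠ 0) (c : F) (h : (a : Matrix ι ι F) *ᵥ v = c • v) :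
    ((a⁻¹ : GL ι F) : Matrix ι ι F) *ᵥ v = c⁻¹ • v := by
  have h1 : ((a⁻¹ : GL ι F) : Matrix ι ι F) *ᵥ ((a : Matrix ι ι F) *ᵥ v) = v := by
    rw [Matrix.mulVec_mulVec, ← Units.val_mul, inv_mul_cancel, Units.val_one, Matrix.one_mulVec]
  rw [h, Matrix.mulVec_smul] at h1
  have hc : c ≠ 0 := by
    rintro rfl
    rw [zero_smul] at h1
    exact hv h1.symm
  calc ((a⁻¹ : GL ι F) : Matrix ι ι F) *ᵥ v = c⁻¹ • (c • (((a⁻¹ : GL ι F) : Matrix ι ι F) *ᵥ v)) := by
        rw [smul_smul, inv_mul_cancel₀ hc, one_smul]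
    _ = c⁻¹ • v := by rw [h1]

/-- NOLINE -/
theorem noLine (M : Subgroup (GL ι F)) (hp : ⁅M, M⁆ = M) (hfix : NoFix M) : NoLine M := by
  intro v hv h
  let S : Subgroup (GL ι F) :=
    { carrier := {x | (x : Matrix ι ι F) *ᵥ v = v}
      mul_mem' := by
        intro a b ha hb
        change ((a * b : GL ι F) : Matrix ι ι F) *ᵥ v = v
        rw [Units.val_mul, ← Matrix.mulVec_mulVec, hb, ha]
      one_mem' := by
        change ((1 : GL ι F) : Matrix ι ι F) *ᵥ v = v
        rw [Units.val_one, Matrix.one_mulVec]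
      inv_mem' := by
        intro a ha
        change ((a⁻¹ : GL ι F) : Matrix ι ι F) *ᵥ v = v
        have := noline_inv a v hv 1 (by rw [one_smul]; exact ha)
        rw [this, inv_one, one_smul] }
  have hS : ⁅M, M⁆ ≤ S := by
    rw [Subgroup.commutator_le]
    intro a ha b hb
    obtain ⟨ca, hca⟩ := h a ha
    obtain ⟨cb, hcb⟩ := h b hb
    have hca' := noline_inv a v hv ca hca
    have hcb' := noline_inv b v hv cb hcb
    have ha0 : ca ≠ 0 := by
      rintro rfl
      rw [inv_zero, zero_smul] at hca'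
      have h1 : (a : Matrix ι ι F) *ᵥ (((a⁻¹ : GL ι F) : Matrix ι ι F) *ᵥ v) = v := by
        rw [Matrix.mulVec_mulVec, ← Units.val_mul, mul_inv_cancel, Units.val_one, Matrix.one_mulVec]
      rw [hca', Matrix.mulVec_zero] at h1
      exact hv h1.symm
    have hb0 : cb ≠ 0 := by
      rintro rfl
      rw [inv_zero, zero_smul] at hcb'
      have h1 : (b : Matrix ι ι F) *ᵥ (((b⁻¹ : GL ι F) : Matrix ι ι F) *ᵥ v) = v := by
        rw [Matrix.mulVec_mulVec, ← Units.val_mul, mul_inv_cancel, Units.val_one, Matrix.one_mulVec]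
      rw [hcb', Matrix.mulVec_zero] at h1
      exact hv h1.symm
    change ((⁅a, b⁆ : GL ι F) : Matrix ι ι F) *ᵥ v = v
    rw [commutatorElement_def, Units.val_mul, Units.val_mul, Units.val_mul, ← Matrix.mulVec_mulVec,
      ← Matrix.mulVec_mulVec, ← Matrix.mulVec_mulVec]
    simp only [hcb', hca', hcb, hca, Matrix.mulVec_smul, smul_smul]
    have : cb⁻¹ * ca⁻¹ * cb * ca = 1 := by field_simp
    rw [this, one_smul]
  rw [hp] at hS
  exact hv (hfix v (fun x hx => hS hx))

end Cfsg.Agent.Lib.Helper66.ASP4
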