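import Cfsg.Agent.Lib.Helper66.ASP4.ADJ
import Cfsg.Agent.Lib.Helper66.ASP4.SYMP

/-! Ladder ASP4, rung NSA. -/

set_option autoImplicit false
set_option linter.unusedSectionVars false

namespace Cfsg.Agent.Lib.Helper66.ASP4

open Cfsg Cfsg.Geo Cfsg.Agent.Lib.Helper77.Asch
open scoped MatrixGroups Matrix

variable {F : Type*} [Field F]
variable {ι : Type} [Fintype ι] [DecidableEq ι]

theorem nsa_neg [CharP F 2] (X : Matrix ι ι F) : -X = X := by
  ext i j
  simp [CharTwo.neg_eq]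

/-- `f u (k v) = f (k* u) v`. -/
theorem nsa_spec' (m : ℕ) (a : Matrix (Fin m ⊕ Fin m) (Fin m ⊕ Fin m) F) (u v : Fin m ⊕ Fin m → F) :
    sympForm m F u (a *ᵥ v) = sympForm m F (adjM m a *ᵥ u) v := by
  rw [adj_spec, adj_adj]

/-- the quadratic form `v ↦ f (k v) v` for `k + k* = 1` in characteristic two. -/
theorem nsa_polar [CharP F 2] (m : ℕ) (k : Matrix (Fin m ⊕ Fin m) (Fin m ⊕ Fin m) F)
    (hk : k + adjM m k = 1) (u v : Fin m ⊕ Fin m → F) :
    QuadraticMap.polar (fun w => sympForm m F (k *ᵥ w) w) u v = sympForm m F u v := by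
  have hS := symp_isSymplectic (F := F) m
  have h1 : sympForm m F (k *ᵥ v) u = sympForm m F (adjM m k *ᵥ u) v := by
    rw [hS.skew, nsa_spec', CharTwo.neg_eq]
  have h2 : sympForm m F u v = sympForm m F (k *ᵥ u) v + sympForm m F (adjM m k *ᵥ u) v := by
    rw [← hS.bilinear.add_left, ← Matrix.add_mulVec, hk, Matrix.one_mulVec]
  unfold QuadraticMap.polar
  simp only [Matrix.mulVec_add, hS.bilinear.add_left, hS.bilinear.add_right]
  rw [h2, h1]
  ring

/-- NSA. -/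
theorem out5_of_nsa [CharP F 2] (m : ℕ) (L : Subgroup (GL (Fin m ⊕ Fin m) F)) (hL : L ≤ spGL m F)
    (A : Subalgebra F (Matrix (Fin m ⊕ Fin m) (Fin m ⊕ Fin m) F)) (hadj : ∀ a ∈ A, adjM m a ∈ A)
    (hn : L ≤ subalgebraNormalizer A) (hplus : ∀ a ∈ A, adjM m a = a → ∃ c : F, a = c • 1)
    (hne : ∃ a ∈ A, ∀ c : F, a ≠ c • 1) : Out5 m L := by
  have hS := symp_isSymplectic (F := F) m
  obtain ⟨k, hkA, hk⟩ : ∃ k ∈ A, k + adjM m k = 1 := by
    obtain ⟨a, ha, hns⟩ := hne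
    obtain ⟨c, hc⟩ := hplus (a + adjM m a) (A.add_mem ha (hadj a ha)) (by
      rw [adj_add, adj_adj, add_comm])
    have hc0 : c ≠ 0 := by
      rintro rfl
      rw [zero_smul] at hc
      have h1 : adjM m a = a := by
        have : adjM m a = -a := (neg_eq_of_add_eq_zero_right hc).symm
        rw [this, nsa_neg]
      obtain ⟨d, hd⟩ := hplus a ha h1
      exact hns d hd
    refine ⟨c⁻¹ • a, A.smul_mem ha _, ?_⟩
    rw [adj_smul, ← smul_add, hc, smul_smul, inv_mul_cancel₀ hc0, one_smul]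
  have hpol : QuadraticMap.polar (fun w => sympForm m F (k *ᵥ w) w) = sympForm m F := by
    funext u v
    exact nsa_polar m k hk u v
  refine ⟨fun w => sympForm m F (k *ᵥ w) w, ⟨?_, ?_, ?_⟩, fun u v => nsa_polar m k hk u v, ?_⟩
  · intro c v
    show sympForm m F (k *ᵥ (c • v)) (c • v) = c ^ 2 * sympForm m F (k *ᵥ v) v
    rw [Matrix.mulVec_smul, hS.bilinear.smul_left, hS.bilinear.smul_right]
    ring
  · rw [hpol]; exact hS.bilinear
  · rw [hpol]; exact hS.nondegenerate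
  · rintro s ⟨g, hg, rfl⟩ v
    show sympForm m F (k *ᵥ ((g : Matrix _ _ F) *ᵥ v)) ((g : Matrix _ _ F) *ᵥ v) = sympForm m F (k *ᵥ v) v
    have hgg : (g : Matrix (Fin m ⊕ Fin m) (Fin m ⊕ Fin m) F) * ((g⁻¹ : GL (Fin m ⊕ Fin m) F) : Matrix _ _ F) = 1 := by
      rw [← Units.val_mul, mul_inv_cancel, Units.val_one]
    have hgg' : ((g⁻¹ : GL (Fin m ⊕ Fin m) F) : Matrix _ _ F) * (g : Matrix (Fin m ⊕ Fin m) (Fin m ⊕ Fin m) F) = 1 := by
      rw [← Units.val_mul, inv_mul_cancel, Units.val_one]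
    obtain ⟨k', hk'⟩ : ∃ k', k' = ((g⁻¹ : GL (Fin m ⊕ Fin m) F) : Matrix _ _ F) * k *
        (g : Matrix (Fin m ⊕ Fin m) (Fin m ⊕ Fin m) F) := ⟨_, rfl⟩
    have hk'A : k' ∈ A := by
      have := (hn (L.inv_mem hg) k).1 hkA
      rw [inv_inv] at this
      rw [hk']; exact this
    have hadjk' : adjM m k' = ((g⁻¹ : GL (Fin m ⊕ Fin m) F) : Matrix _ _ F) * adjM m k *
        (g : Matrix (Fin m ⊕ Fin m) (Fin m ⊕ Fin m) F) := by
      rw [hk', adj_mul, adj_mul, adj_of_mem m g (hL hg), adj_of_mem m g⁻¹ (inv_mem (hL hg)), inv_inv,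
        mul_assoc]
    have hsum : k' + adjM m k' = 1 := by
      rw [hadjk', hk', ← add_mul, ← mul_add, hk, mul_one, hgg']
    have hd : adjM m (k' + k) = k' + k := by
      have e1 : adjM m k' = 1 - k' := eq_sub_of_add_eq' hsum
      have e2 : adjM m k = 1 - k := eq_sub_of_add_eq' hk
      rw [adj_add, e1, e2]
      have : (1 - k' + (1 - k) : Matrix (Fin m ⊕ Fin m) (Fin m ⊕ Fin m) F) = (1 + 1) + -(k' + k) := by abel
      rw [this, nsa_neg]
      have h11 : (1 + 1 : Matrix (Fin m ⊕ Fin m) (Fin m ⊕ Fin m) F) = 0 := by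
        have := nsa_neg (F := F) (1 : Matrix (Fin m ⊕ Fin m) (Fin m ⊕ Fin m) F)
        calc (1 + 1 : Matrix (Fin m ⊕ Fin m) (Fin m ⊕ Fin m) F) = 1 + -1 := by rw [this]
          _ = 0 := by abel
      rw [h11, zero_add]
    obtain ⟨c, hc⟩ := hplus _ (A.add_mem hk'A hkA) hd
    have hk'eq : k' = k + c • 1 := by
      have : k' = (k' + k) + -k := by abel
      rw [this, hc, nsa_neg, add_comm]
    have h1 : k *ᵥ ((g : Matrix _ _ F) *ᵥ v) = (g : Matrix _ _ F) *ᵥ (k' *ᵥ v) := by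
      rw [hk', Matrix.mulVec_mulVec, Matrix.mulVec_mulVec, ← mul_assoc, ← mul_assoc, hgg, one_mul]
    rw [h1]
    have h2 : sympForm m F ((g : Matrix _ _ F) *ᵥ (k' *ᵥ v)) ((g : Matrix _ _ F) *ᵥ v) =
        sympForm m F (k' *ᵥ v) v := (hL hg) (k' *ᵥ v) v
    rw [h2, hk'eq, Matrix.add_mulVec, hS.bilinear.add_left, Matrix.smul_mulVec, Matrix.one_mulVec,
      hS.bilinear.smul_left, hS.alternating, mul_zero, add_zero]

end Cfsg.Agent.Lib.Helper66.ASP4
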