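import Cfsg.Agent.Lib.Helper66.ASP4.Defs
import Cfsg.Agent.Lib.Helper11.AschO.GCOMM

set_option autoImplicit false

namespace Cfsg.Agent.Lib.Helper66.ASP4

open Cfsg Cfsg.Geo Cfsg.Agent.Lib.Helper77.Asch
open scoped MatrixGroups Matrix

variable {F : Type*} [Field F]
variable {ι : Type} [Fintype ι] [DecidableEq ι]

/-- PCOMM. -/
theorem comm_field [Finite F] [Nonempty ι] (S : Set (Matrix ι ι F)) (hS : ActsIrreducibly S) :
    IsFieldSubalgebra (Module.finrank F (Subalgebra.centralizer F S)) (Subalgebra.centralizer F S) :=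
  Cfsg.Agent.Lib.Helper11.AschO.comm_field S hS

end Cfsg.Agent.Lib.Helper66.ASP4
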