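import Cfsg.Agent.Lib.Helper66.ASP4.SYMP
import Cfsg.Agent.Lib.Helper66.ASP4.PERP
import Cfsg.Agent.Lib.Helper66.ASP4.STAB

/-! Ladder ASP4, rung QINV. -/

set_option autoImplicit false

namespace Cfsg.Agent.Lib.Helper66.ASP4

open Cfsg Cfsg.Geo Cfsg.Agent.Lib.Helper77.Asch
open scoped MatrixGroups Matrix

variable {F : Type*} [Field F]

theorem qinv_sq_inj [CharP F 2] {a b : F} (h : a * a = b * b) : a = b := by
  have h2 : (2 : F) = 0 := CharTwo.two_eq_zero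
  have h3 : (a - b) * (a - b) = 0 := by linear_combination h + (b * b - a * b) * h2
  exact sub_eq_zero.1 (mul_self_eq_zero.1 h3)

/-- a functional is `f z ·` -/
theorem qinv_repr (m : ℕ) (ell : (Fin m ⊕ Fin m → F) →ₗ[F] F) :
    ∃ z, ∀ v, sympForm m F z v = ell v := by
  refine ⟨((Matrix.toBilin' (Matrix.J (Fin m) F)).toDual (perp_nondeg m)).symm ell, fun v => ?_⟩
  have := LinearMap.BilinForm.apply_toDual_symm_apply (B := Matrix.toBilin' (Matrix.J (Fin m) F))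
    (hB := perp_nondeg m) ell v
  rw [Matrix.toBilin'_apply'] at this
  exact this

theorem qinv [Finite F] [CharP F 2] (m : ℕ) (L M : Subgroup (GL (Fin m ⊕ Fin m) F)) (hL : L ≤ spGL m F)
    (hn : NormBy L M) (hfix : NoFix M) (Q : (Fin m ⊕ Fin m → F) → F) (hQ : IsNondegenerateQuadraticForm Q)
    (hpol : ∀ u v, QuadraticMap.polar Q u v = sympForm m F u v) (hMQ : FixesQuadForm (matrixSet M) Q) :
    FixesQuadForm (matrixSet L) Q := by
  rintro _ ⟨g, hg, rfl⟩ v₀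
  have h2 : (2 : F) = 0 := CharTwo.two_eq_zero
  have hS := symp_isSymplectic (F := F) m
  have hgf : ∀ u v, sympForm m F ((g : Matrix (Fin m ⊕ Fin m) (Fin m ⊕ Fin m) F) *ᵥ u) ((g : Matrix (Fin m ⊕ Fin m) (Fin m ⊕ Fin m) F) *ᵥ v) = sympForm m F u v :=
    hL hg
  have hadd : ∀ u v, Q (u + v) = Q u + Q v + sympForm m F u v := by
    intro u v
    rw [← hpol]; unfold QuadraticMap.polar; ring
  have hMf : ∀ x ∈ M, ∀ u v,
      sympForm m F ((x : Matrix (Fin m ⊕ Fin m) (Fin m ⊕ Fin m) F) *ᵥ u) ((x : Matrix (Fin m ⊕ Fin m) (Fin m ⊕ Fin m) F) *ᵥ v) = sympForm m F u v := by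
    intro x hx u v
    have h1 := hadd ((x : Matrix (Fin m ⊕ Fin m) (Fin m ⊕ Fin m) F) *ᵥ u) ((x : Matrix (Fin m ⊕ Fin m) (Fin m ⊕ Fin m) F) *ᵥ v)
    rw [← Matrix.mulVec_add, hMQ _ ⟨x, hx, rfl⟩, hMQ _ ⟨x, hx, rfl⟩, hMQ _ ⟨x, hx, rfl⟩, hadd] at h1
    exact (add_left_cancel h1).symm
  have hsq : ∀ a : F, ∃ s : F, s * s = a := by
    intro a
    haveI := Fintype.ofFinite F
    obtain ⟨s, hs⟩ := FiniteField.isSquare_of_char_two (ringChar.eq F 2) a
    exact ⟨s, hs.symm⟩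
  choose s hs using hsq
  set lam : (Fin m ⊕ Fin m → F) → F := fun v => Q ((g : Matrix (Fin m ⊕ Fin m) (Fin m ⊕ Fin m) F) *ᵥ v) + Q v with hlam
  have lam_add : ∀ u v, lam (u + v) = lam u + lam v := by
    intro u v
    simp only [hlam]
    rw [Matrix.mulVec_add, hadd, hadd, hgf]
    linear_combination (sympForm m F u v) * h2
  have lam_smul : ∀ (c : F) v, lam (c • v) = c * c * lam v := by
    intro c v
    simp only [hlam]
    rw [Matrix.mulVec_smul, hQ.smul, hQ.smul]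
    ring
  have lam_M : ∀ x ∈ M, ∀ v, lam ((x : Matrix (Fin m ⊕ Fin m) (Fin m ⊕ Fin m) F) *ᵥ v) = lam v := by
    intro x hx v
    simp only [hlam]
    rw [hMQ _ ⟨x, hx, rfl⟩]
    congr 1
    have h1 : (g : Matrix (Fin m ⊕ Fin m) (Fin m ⊕ Fin m) F) *ᵥ ((x : Matrix (Fin m ⊕ Fin m) (Fin m ⊕ Fin m) F) *ᵥ v) =
        ((g * x * g⁻¹ : GL (Fin m ⊕ Fin m) F) : Matrix (Fin m ⊕ Fin m) (Fin m ⊕ Fin m) F) *ᵥ ((g : Matrix (Fin m ⊕ Fin m) (Fin m ⊕ Fin m) F) *ᵥ v) := by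
      rw [Matrix.mulVec_mulVec, Matrix.mulVec_mulVec, ← Units.val_mul, ← Units.val_mul]
      congr 2
      group
    rw [h1, hMQ _ ⟨_, hn g hg x hx, rfl⟩]
  let ell : (Fin m ⊕ Fin m → F) →ₗ[F] F :=
    { toFun := fun v => s (lam v)
      map_add' := by
        intro u v
        apply qinv_sq_inj
        rw [hs, lam_add]
        linear_combination (-1 : F) * hs (lam u) - hs (lam v) - (s (lam u) * s (lam v)) * h2
      map_smul' := by
        intro c v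
        apply qinv_sq_inj
        rw [hs, lam_smul, RingHom.id_apply, smul_eq_mul]
        linear_combination (-(c * c)) * hs (lam v) }
  have hell : ∀ v, ell v * ell v = lam v := fun v => hs _
  obtain ⟨z, hz⟩ := qinv_repr m ell
  have hzfix : ∀ x ∈ M, (x : Matrix (Fin m ⊕ Fin m) (Fin m ⊕ Fin m) F) *ᵥ z = z := by
    intro x hx
    by_contra hne
    obtain ⟨-, ⟨y, hy⟩⟩ := hS.nondegenerate _ (sub_ne_zero.2 hne)
    apply hy
    have h1 : sympForm m F ((x : Matrix (Fin m ⊕ Fin m) (Fin m ⊕ Fin m) F) *ᵥ z) y = sympForm m F z y := by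
      have e1 : y = (x : Matrix (Fin m ⊕ Fin m) (Fin m ⊕ Fin m) F) *ᵥ (((x⁻¹ : GL (Fin m ⊕ Fin m) F) : Matrix (Fin m ⊕ Fin m) (Fin m ⊕ Fin m) F) *ᵥ y) :=
        (stab_mul_inv x y).symm
      conv_lhs => rw [e1]
      rw [hMf x hx, hz, hz]
      apply qinv_sq_inj
      rw [hell, hell, lam_M _ (M.inv_mem hx)]
    have h3 : (x : Matrix (Fin m ⊕ Fin m) (Fin m ⊕ Fin m) F) *ᵥ z - z = (x : Matrix (Fin m ⊕ Fin m) (Fin m ⊕ Fin m) F) *ᵥ z + (-1 : F) • z := by
      rw [neg_smul, one_smul, sub_eq_add_neg]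
    rw [h3, hS.bilinear.add_left, hS.bilinear.smul_left, h1]
    ring
  have hz0 : z = 0 := hfix z hzfix
  have h0 : lam v₀ = 0 := by
    rw [← hell, ← hz, hz0]
    have : sympForm m F 0 v₀ = 0 := by
      have := hS.bilinear.smul_left 0 0 v₀
      rwa [zero_smul, zero_mul] at this
    rw [this, zero_mul]
  exact CharTwo.add_eq_zero.1 h0

end Cfsg.Agent.Lib.Helper66.ASP4
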