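import Cfsg.Agent.Lib.Helper66.ASP4.SYMP
import Cfsg.Agent.Lib.Helper66.ASP4.STAB

/-! Ladder ASP4, rung TWOTS. -/

set_option autoImplicit false

namespace Cfsg.Agent.Lib.Helper66.ASP4

open Cfsg Cfsg.Geo Cfsg.Agent.Lib.Helper77.Asch
open scoped MatrixGroups Matrix

variable {F : Type*} [Field F]

theorem exists_quad_of_two_ts [CharP F 2] (m : ℕ) (M : Subgroup (GL (Fin m ⊕ Fin m) F)) (hM : M ≤ spGL m F)
    (X₁ X₂ : Submodule F (Fin m ⊕ Fin m → F)) (hc : IsCompl X₁ X₂)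
    (h1 : IsTotallySingularFor (sympForm m F) X₁) (h2 : IsTotallySingularFor (sympForm m F) X₂)
    (hX₁ : M ≤ subspaceStabilizer X₁) (hX₂ : M ≤ subspaceStabilizer X₂) : Out5 m M := by
  have h20 : (2 : F) = 0 := CharTwo.two_eq_zero
  have hS := symp_isSymplectic (F := F) m
  let π₁ := X₁.projectionOnto X₂ hc
  let π₂ := X₂.projectionOnto X₁ hc.symm
  let Q : (Fin m ⊕ Fin m → F) → F := fun v => sympForm m F (π₁ v : Fin m ⊕ Fin m → F) (π₂ v : Fin m ⊕ Fin m → F)
  have hdec : ∀ v, ∃ a ∈ X₁, ∃ b ∈ X₂, v = a + b := by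
    intro v
    exact ⟨π₁ v, (π₁ v).2, π₂ v, (π₂ v).2,
      (Submodule.projection_add_projection_eq_self hc v).symm⟩
  have hQ' : ∀ a ∈ X₁, ∀ b ∈ X₂, Q (a + b) = sympForm m F a b := by
    intro a ha b hb
    have e1 : π₁ (a + b) = ⟨a, ha⟩ := by
      rw [map_add]
      have := Submodule.projectionOnto_apply_left hc ⟨a, ha⟩
      have h3 := Submodule.projectionOnto_apply_right hc ⟨b, hb⟩
      exact (congrArg₂ (· + ·) this h3).trans (add_zero _)
    have e2 : π₂ (a + b) = ⟨b, hb⟩ := by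
      rw [map_add]
      have := Submodule.projectionOnto_apply_left hc.symm ⟨b, hb⟩
      have h3 := Submodule.projectionOnto_apply_right hc.symm ⟨a, ha⟩
      exact (congrArg₂ (· + ·) h3 this).trans (zero_add _)
    show sympForm m F (π₁ (a + b) : Fin m ⊕ Fin m → F) (π₂ (a + b) : Fin m ⊕ Fin m → F) = _
    rw [e1, e2]
  have hpol : ∀ u v, QuadraticMap.polar Q u v = sympForm m F u v := by
    intro u v
    obtain ⟨a, ha, b, hb, rfl⟩ := hdec u
    obtain ⟨a', ha', b', hb', rfl⟩ := hdec v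
    unfold QuadraticMap.polar
    have e : a + b + (a' + b') = (a + a') + (b + b') := by abel
    rw [e, hQ' _ (X₁.add_mem ha ha') _ (X₂.add_mem hb hb'), hQ' a ha b hb, hQ' a' ha' b' hb']
    simp only [hS.bilinear.add_left, hS.bilinear.add_right]
    rw [h1 a ha a' ha', h2 b hb b' hb', hS.skew b a']
    linear_combination (sympForm m F a' b) * h20
  have hpq : QuadraticMap.polar Q = sympForm m F := by
    funext u v
    exact hpol u v
  refine ⟨Q, ⟨?_, ?_, ?_⟩, hpol, ?_⟩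
  · intro c v
    obtain ⟨a, ha, b, hb, rfl⟩ := hdec v
    rw [smul_add, hQ' _ (X₁.smul_mem c ha) _ (X₂.smul_mem c hb), hQ' a ha b hb, hS.bilinear.smul_left,
      hS.bilinear.smul_right]
    ring
  · rw [hpq]; exact hS.bilinear
  · rw [hpq]; exact hS.nondegenerate
  · rintro _ ⟨x, hx, rfl⟩ v
    obtain ⟨a, ha, b, hb, rfl⟩ := hdec v
    rw [Matrix.mulVec_add, hQ' _ (((stab_mem X₁ x).1 (hX₁ hx) a).1 ha) _ (((stab_mem X₂ x).1 (hX₂ hx) b).1 hb),
      hQ' a ha b hb]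
    exact hM hx a b

end Cfsg.Agent.Lib.Helper66.ASP4
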