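import Cfsg.Agent.Lib.Helper66.ASP4.FIX0
import Cfsg.Agent.Lib.Helper66.ASP4.NOLINE
import Cfsg.Agent.Lib.Helper66.ASP4.PRED
import Cfsg.Agent.Lib.Helper66.ASP4.INVPL
import Cfsg.Agent.Lib.Helper66.ASP4.TWOTS
import Cfsg.Agent.Lib.Helper66.ASP4.GRAPH
import Cfsg.Agent.Lib.Helper66.ASP4.QINV
import Cfsg.Agent.Lib.Helper66.ASP4.D2

set_option autoImplicit false

namespace Cfsg.Agent.Lib.Helper66.ASP4

open Cfsg Cfsg.Geo Cfsg.Agent.Lib.Helper77.Asch
open scoped MatrixGroups Matrix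

variable {F : Type*} [Field F]
variable {ι : Type} [Fintype ι] [DecidableEq ι]

/-- the image under `g ∈ L` of an `M`-invariant subspace is `M`-invariant. -/
theorem planes_map_stab (L M : Subgroup (GL ι F)) (hn : NormBy L M) (g : GL ι F) (hg : g ∈ L)
    (W : Submodule F (ι → F)) (hW : M ≤ subspaceStabilizer W) :
    M ≤ subspaceStabilizer (W.map (Matrix.toLin' (g : Matrix ι ι F))) := by
  intro x hx
  rw [mem_stab_iff]
  have h1 : g⁻¹ * x * g ∈ M := by
    have := hn g⁻¹ (L.inv_mem hg) x hx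
    rwa [inv_inv] at this
  have h2 := (mem_stab_iff W _).1 (hW h1)
  have h3 : x * g = g * (g⁻¹ * x * g) := by group
  rw [← Submodule.map_comp, ← Matrix.toLin'_mul, ← Units.val_mul, h3, Units.val_mul,
    Matrix.toLin'_mul, Submodule.map_comp, h2]

theorem planes_map_finrank (g : GL ι F) (W : Submodule F (ι → F)) :
    Module.finrank F (W.map (Matrix.toLin' (g : Matrix ι ι F))) = Module.finrank F W := by
  apply le_antisymm (Submodule.finrank_map_le _ _)
  have h : (W.map (Matrix.toLin' (g : Matrix ι ι F))).map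
      (Matrix.toLin' ((g⁻¹ : GL ι F) : Matrix ι ι F)) = W := by
    rw [← Submodule.map_comp, ← Matrix.toLin'_mul, ← Units.val_mul, inv_mul_cancel, Units.val_one,
      Matrix.toLin'_one, Submodule.map_id]
  calc Module.finrank F W = Module.finrank F ((W.map (Matrix.toLin' (g : Matrix ι ι F))).map
      (Matrix.toLin' ((g⁻¹ : GL ι F) : Matrix ι ι F))) := by rw [h]
    _ ≤ _ := Submodule.finrank_map_le _ _

theorem planes_map_ts (m : ℕ) (g : GL (Fin m ⊕ Fin m) F) (hg : g ∈ spGL m F)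
    (W : Submodule F (Fin m ⊕ Fin m → F)) (hW : IsTotallySingularFor (sympForm m F) W) :
    IsTotallySingularFor (sympForm m F)
      (W.map (Matrix.toLin' (g : Matrix (Fin m ⊕ Fin m) (Fin m ⊕ Fin m) F))) := by
  have hg' : ∀ u v, sympForm m F ((g : Matrix (Fin m ⊕ Fin m) (Fin m ⊕ Fin m) F) *ᵥ u)
      ((g : Matrix (Fin m ⊕ Fin m) (Fin m ⊕ Fin m) F) *ᵥ v) = sympForm m F u v := hg
  rintro _ ⟨u, hu, rfl⟩ _ ⟨v, hv, rfl⟩
  rw [Matrix.toLin'_apply, Matrix.toLin'_apply, hg']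
  exact hW u hu v hv

/-- PLANES. -/
theorem planes [Finite F] [CharP F 2] (L M : Subgroup (GL (Fin 2 ⊕ Fin 2) F)) (hL : L ≤ spGL 2 F)
    (hirr : ActsIrreducibly (matrixSet L)) (hML : M ≤ L) (hn : NormBy L M) (hp : ⁅M, M⁆ = M) (hM : M ≠ ⊥)
    (hred : ¬ ActsIrreducibly (matrixSet M)) : Out2 L ∨ Out5 2 L := by
  have hMs : M ≤ spGL 2 F := hML.trans hL
  have hfix := noFix L M hirr hn hM
  have hl := noLine M hp hfix
  by_cases hT : ∃ X : Submodule F (Fin 2 ⊕ Fin 2 → F), Module.finrank F X = 2 ∧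
      IsTotallySingularFor (sympForm 2 F) X ∧ M ≤ subspaceStabilizer X
  · obtain ⟨X₁, h2X₁, hts₁, hX₁⟩ := hT
    by_cases hall : ∀ g ∈ L, X₁.map (Matrix.toLin' (g : Matrix (Fin 2 ⊕ Fin 2) (Fin 2 ⊕ Fin 2) F)) = X₁
    · exfalso
      have hle : L ≤ subspaceStabilizer X₁ := fun g hg => (mem_stab_iff X₁ g).2 (hall g hg)
      rcases irr_stab L hirr X₁ hle with h0 | h1
      · rw [h0, finrank_bot] at h2X₁
        omega
      · rw [h1, finrank_top, invpl_finrank] at h2X₁
        omega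
    · right
      push Not at hall
      obtain ⟨g, hg, hne⟩ := hall
      have hX₂ := planes_map_stab L M hn g hg X₁ hX₁
      have h2X₂ := (planes_map_finrank g X₁).trans h2X₁
      have hts₂ := planes_map_ts 2 g (hL hg) X₁ hts₁
      have hinf := inv_meet M hMs hl _ _ hX₁ hX₂ h2X₁ h2X₂ (Ne.symm hne)
      have hc : IsCompl X₁ (X₁.map (Matrix.toLin' (g : Matrix (Fin 2 ⊕ Fin 2) (Fin 2 ⊕ Fin 2) F))) := by
        refine ⟨disjoint_iff.2 hinf, codisjoint_iff.2 ?_⟩
        apply Submodule.eq_top_of_finrank_eq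
        have h := Submodule.finrank_sup_add_finrank_inf_eq X₁
          (X₁.map (Matrix.toLin' (g : Matrix (Fin 2 ⊕ Fin 2) (Fin 2 ⊕ Fin 2) F)))
        rw [hinf, finrank_bot, h2X₁, h2X₂] at h
        rw [invpl_finrank]
        omega
      obtain ⟨Q, hQ, hpol, hMQ⟩ := exists_quad_of_two_ts 2 M hMs _ _ hc hts₁ hts₂ hX₁ hX₂
      exact ⟨Q, hQ, hpol, qinv 2 L M hL hn hfix Q hQ hpol hMQ⟩
  · left
    obtain ⟨W, h0, h1, hW⟩ := red M hred
    have h2W := inv_plane M hMs hl W hW h0 h1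
    have hWp := invpl_perp_stab 2 M hMs W hW
    have h2Wp : Module.finrank F (perp 2 W) = 2 := by
      have := perp_finrank 2 W
      omega
    have hnd : W ⊓ perp 2 W = ⊥ := by
      by_cases he : W = perp 2 W
      · exfalso
        apply hT
        refine ⟨W, h2W, ?_, hW⟩
        intro u hu v hv
        rw [he] at hv
        exact (mem_perp 2 W v).1 hv u hu
      · exact inv_meet M hMs hl _ _ hW hWp h2W h2Wp he
    refine out2_of_plane L hL W hnd h2W (fun g hg => ?_)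
    by_contra hcon
    push Not at hcon
    have hX := planes_map_stab L M hn g hg W hW
    have h2X := (planes_map_finrank g W).trans h2W
    have e1 := inv_meet M hMs hl _ _ hX hW h2X h2W hcon.1
    have e2 := inv_meet M hMs hl _ _ hX hWp h2X h2Wp hcon.2
    exact hT (exists_ts_of_third M hMs W _ hW hX h2W h2X hnd e1 e2)

end Cfsg.Agent.Lib.Helper66.ASP4
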