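import Cfsg.Agent.Lib.Helper66.ASP4.Defs

set_option autoImplicit false

namespace Cfsg.Agent.Lib.Helper66.ASP4

open Cfsg Cfsg.Geo Cfsg.Agent.Lib.Helper77.Asch
open scoped MatrixGroups Matrix

variable {F : Type*} [Field F]
variable {ι : Type} [Fintype ι] [DecidableEq ι]

/-- PMONO. -/
theorem subfieldSubgroup_mono {F₀ F₁ : Subfield F} (h : F₀ ≤ F₁) (P : GL ι F) :
    subfieldSubgroup F₀ P ≤ subfieldSubgroup F₁ P := by
  unfold subfieldSubgroup
  apply Subgroup.map_mono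
  apply sup_le_sup_right
  rintro _ ⟨g, rfl⟩
  refine ⟨Matrix.GeneralLinearGroup.map (Subfield.inclusion h) g, ?_⟩
  ext i j
  rfl

end Cfsg.Agent.Lib.Helper66.ASP4
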