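import Cfsg.Agent.Lib.Helper66.ASP4.Defs
import Cfsg.Agent.Lib.Helper66.ASP4.SYMP

set_option autoImplicit false

namespace Cfsg.Agent.Lib.Helper66.ASP4

open Cfsg Cfsg.Geo Cfsg.Agent.Lib.Helper77.Asch
open scoped MatrixGroups Matrix

variable {F : Type*} [Field F]
variable {ι : Type} [Fintype ι] [DecidableEq ι]

theorem tv_apply (m : ℕ) (z : Fin m ⊕ Fin m → F) (c : F) (v : Fin m ⊕ Fin m → F) :
    sympTransvection m z c *ᵥ v = v + (c * sympForm m F v z) • z := by
  unfold sympTransvection sympForm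
  rw [Matrix.add_mulVec, Matrix.one_mulVec, Matrix.smul_mulVec, Matrix.vecMulVec_mulVec,
    dotProduct_comm]
  congr 1
  ext i
  simp only [Pi.smul_apply, MulOpposite.smul_eq_mul_unop, MulOpposite.unop_op, smul_eq_mul]
  ring

theorem tv_mul (m : ℕ) (z : Fin m ⊕ Fin m → F) (c : F) :
    sympTransvection m z c * sympTransvection m z (-c) = 1 := by
  have hS := symp_isSymplectic (F := F) m
  apply Matrix.toLin'.injective
  apply LinearMap.ext
  intro v
  rw [Matrix.toLin'_apply, ← Matrix.mulVec_mulVec, tv_apply, tv_apply, hS.bilinear.add_left,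
    hS.bilinear.smul_left, hS.alternating, Matrix.toLin'_apply, Matrix.one_mulVec, mul_zero,
    add_zero, add_assoc, ← add_smul]
  simp

/-- TV (general m).  τ v = v + c f(v,z) z. -/
theorem exists_transvection (m : ℕ) (z : Fin m ⊕ Fin m → F) (c : F) :
    ∃ g : GL (Fin m ⊕ Fin m) F, g ∈ spGL m F ∧ ∀ v, (g : Matrix (Fin m ⊕ Fin m) (Fin m ⊕ Fin m) F) *ᵥ v = v + (c * sympForm m F v z) • z := by
  have hS := symp_isSymplectic (F := F) m
  refine ⟨⟨sympTransvection m z c, sympTransvection m z (-c), tv_mul m z c, ?_⟩, ?_, ?_⟩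
  · have := tv_mul m z (-c)
    rwa [neg_neg] at this
  · intro u v
    show sympForm m F (sympTransvection m z c *ᵥ u) (sympTransvection m z c *ᵥ v) = sympForm m F u v
    rw [tv_apply, tv_apply, hS.bilinear.add_left, hS.bilinear.add_right, hS.bilinear.add_right,
      hS.bilinear.smul_left, hS.bilinear.smul_left, hS.bilinear.smul_right, hS.bilinear.smul_right,
      hS.alternating, hS.skew z v]
    ring
  · intro v
    exact tv_apply m z c v

end Cfsg.Agent.Lib.Helper66.ASP4
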