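import Cfsg.Agent.Lib.Helper66.ASP4.Defs
import Cfsg.Agent.Lib.Helper66.ASP4.SYMP
import Cfsg.Agent.Lib.Helper66.ASP4.STAB
import Cfsg.Agent.Lib.Helper66.ASP4.TV

set_option autoImplicit false

namespace Cfsg.Agent.Lib.Helper66.ASP4

open Cfsg Cfsg.Geo Cfsg.Agent.Lib.Helper77.Asch
open scoped MatrixGroups Matrix

variable {F : Type*} [Field F]
variable {ι : Type} [Fintype ι] [DecidableEq ι]

/-- the linear functional `v ↦ f v z` -/
def ps1F (m : ℕ) (z : Fin m ⊕ Fin m → F) : (Fin m ⊕ Fin m → F) →ₗ[F] F where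
  toFun v := sympForm m F v z
  map_add' x y := (symp_isSymplectic (F := F) m).bilinear.add_left x y z
  map_smul' c x := (symp_isSymplectic (F := F) m).bilinear.smul_left c x z

@[simp] theorem ps1F_apply (m : ℕ) (z v : Fin m ⊕ Fin m → F) : ps1F m z v = sympForm m F v z := rfl

/-- a functional has a non-zero kernel vector in every subspace of dimension `≥ 2` -/
theorem ps1_exists_ker {V : Type*} [AddCommGroup V] [Module F V] (U : Submodule F V)
    [Module.Finite F U] (hU : 2 ≤ Module.finrank F U) (φ : V →ₗ[F] F) :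
    ∃ x ∈ U, x ≠ 0 ∧ φ x = 0 := by
  have h1 := LinearMap.finrank_range_add_finrank_ker (φ.domRestrict U)
  have h2 : Module.finrank F (LinearMap.range (φ.domRestrict U)) ≤ 1 := by
    have := Submodule.finrank_le (LinearMap.range (φ.domRestrict U))
    rwa [Module.finrank_self] at this
  have h3 : LinearMap.ker (φ.domRestrict U) ≠ ⊥ := by
    intro h
    rw [h, finrank_bot] at h1
    omega
  obtain ⟨x, hx, hx0⟩ := Submodule.exists_mem_ne_zero_of_ne_bot h3
  refine ⟨x, x.2, fun h => hx0 (Subtype.ext h), ?_⟩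
  have := LinearMap.mem_ker.1 hx
  simpa using this

/-- PS1 (general m). -/
theorem not_le_subspace (m : ℕ) (W : Submodule F (Fin m ⊕ Fin m → F)) (h0 : W ≠ ⊥) (h1 : W ≠ ⊤) :
    ¬ spGL m F ≤ subspaceStabilizer W := by
  intro hle
  have hS := symp_isSymplectic (F := F) m
  obtain ⟨u, huW, hu0⟩ := Submodule.exists_mem_ne_zero_of_ne_bot h0
  obtain ⟨z0, hz0⟩ : ∃ z, z ∉ W := by
    by_contra hcon
    push Not at hcon
    exact h1 ((Submodule.eq_top_iff').2 hcon)
  obtain ⟨-, ⟨x, hx⟩⟩ := hS.nondegenerate u hu0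
  obtain ⟨z, hzW, hz⟩ : ∃ z, z ∉ W ∧ sympForm m F u z ≠ 0 := by
    by_cases hxW : x ∈ W
    · by_cases h2 : sympForm m F u z0 = 0
      · refine ⟨z0 + x, fun h => hz0 ((W.add_mem_iff_left hxW).1 h), ?_⟩
        rw [hS.bilinear.add_right, h2, zero_add]
        exact hx
      · exact ⟨z0, hz0, h2⟩
    · exact ⟨x, hxW, hx⟩
  obtain ⟨g, hg, hgv⟩ := exists_transvection m z (1 : F)
  have h3 := ((stab_mem W g).1 (hle hg) u).1 huW
  rw [hgv, one_mul] at h3
  have h4 : sympForm m F u z • z ∈ W := (W.add_mem_iff_right huW).1 h3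
  exact hzW ((W.smul_mem_iff hz).1 h4)

end Cfsg.Agent.Lib.Helper66.ASP4
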