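import Cfsg.Agent.Lib.Helper66.ASP4.PS1

set_option autoImplicit false

namespace Cfsg.Agent.Lib.Helper66.ASP4

open Cfsg Cfsg.Geo Cfsg.Agent.Lib.Helper77.Asch
open scoped MatrixGroups Matrix

variable {F : Type*} [Field F]
variable {ι : Type} [Fintype ι] [DecidableEq ι]

/-- PS2 (general m, k ≥ 2). -/
theorem not_le_decomp (m k : ℕ) (hk : 2 ≤ k) (D : Fin 2 → Submodule F (Fin m ⊕ Fin m → F)) (hD : IsMDecomposition k D) :
    ¬ spGL m F ≤ decompositionStabilizer D := by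
  intro hle
  have hS := symp_isSymplectic (F := F) m
  have hne : ∀ i, ∃ u ∈ D i, u ≠ 0 := by
    intro i
    apply Submodule.exists_mem_ne_zero_of_ne_bot
    intro h
    have h1 := hD.finrank_eq i
    rw [h, finrank_bot] at h1
    omega
  have key : ∀ i j x, j ≠ i → x ∈ D i → x ∈ D j → x = 0 := by
    intro i j x hj h1 h2
    have h3 : x ∈ ⨆ j, ⨆ (_ : j ≠ i), D j := (le_iSup₂_of_le j hj le_rfl : D j ≤ _) h2
    have := (hD.indep i).le_bot ⟨h1, h3⟩
    simpa using this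
  obtain ⟨u0, hu0, hu00⟩ := hne 0
  obtain ⟨u1, hu1, hu10⟩ := hne 1
  have h01 : (0 : Fin 2) ≠ 1 := by decide
  have hz0 : u0 + u1 ≠ 0 := by
    intro h
    have h2 : u0 = -u1 := eq_neg_of_add_eq_zero_left h
    exact hu00 (key 0 1 u0 h01.symm hu0 (by rw [h2]; exact (D 1).neg_mem hu1))
  obtain ⟨g, hg, hgv⟩ := exists_transvection m (u0 + u1) (1 : F)
  obtain ⟨σ, hσ⟩ := hle hg
  have hfix : ∀ i, σ i = i := by
    intro i
    obtain ⟨x, hx, hx0, hxz⟩ := ps1_exists_ker (D i) (by rw [hD.finrank_eq i]; exact hk)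
      (ps1F m (u0 + u1))
    rw [ps1F_apply] at hxz
    have h2 : x ∈ D (σ i) := by
      rw [← hσ i]
      refine ⟨x, hx, ?_⟩
      rw [Matrix.toLin'_apply, hgv, hxz, mul_zero, zero_smul, add_zero]
    by_contra hne'
    exact hx0 (key i (σ i) x hne' hx h2)
  -- some `v ∈ D i` is not orthogonal to `z`
  obtain ⟨i, v, hv, hvz⟩ : ∃ i, ∃ v ∈ D i, sympForm m F v (u0 + u1) ≠ 0 := by
    by_contra hcon
    push Not at hcon
    have h2 : iSup D ≤ LinearMap.ker (ps1F m (u0 + u1)) := by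
      refine iSup_le (fun i v hv => ?_)
      rw [LinearMap.mem_ker, ps1F_apply]
      exact hcon i v hv
    rw [hD.iSup_eq_top] at h2
    obtain ⟨⟨x, hx⟩, -⟩ := hS.nondegenerate _ hz0
    apply hx
    have := h2 (Submodule.mem_top : x ∈ ⊤)
    rwa [LinearMap.mem_ker, ps1F_apply] at this
  have h3 : v + (1 * sympForm m F v (u0 + u1)) • (u0 + u1) ∈ D i := by
    have h4 : (g : Matrix (Fin m ⊕ Fin m) (Fin m ⊕ Fin m) F) *ᵥ v ∈ D (σ i) := by
      rw [← hσ i]
      exact ⟨v, hv, by rw [Matrix.toLin'_apply]⟩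
    rwa [hfix i, hgv] at h4
  rw [one_mul] at h3
  have h5 : u0 + u1 ∈ D i := ((D i).smul_mem_iff hvz).1 (((D i).add_mem_iff_right hv).1 h3)
  fin_cases i
  · exact hu10 (key 1 0 u1 h01 hu1 (((D 0).add_mem_iff_right hu0).1 h5))
  · exact hu00 (key 0 1 u0 h01.symm hu0 (((D 1).add_mem_iff_left hu1).1 h5))

end Cfsg.Agent.Lib.Helper66.ASP4
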