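import Cfsg.Agent.Lib.Helper66.ASP4.PS1

set_option autoImplicit false

namespace Cfsg.Agent.Lib.Helper66.ASP4

open Cfsg Cfsg.Geo Cfsg.Agent.Lib.Helper77.Asch
open scoped MatrixGroups Matrix

variable {F : Type*} [Field F]
variable {ι : Type} [Fintype ι] [DecidableEq ι]

/-- a non-zero element of a field subalgebra kills no non-zero vector -/
theorem ps3_inj {r : ℕ} (K : Subalgebra F (Matrix ι ι F)) (hK : IsFieldSubalgebra r K)
    (d : Matrix ι ι F) (hd : d ∈ K) (u : ι → F) (hu : u ≠ 0) (hdu : d *ᵥ u = 0) : d = 0 := by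
  by_contra hd0
  obtain ⟨y, hy, hdy⟩ := hK.inv d hd hd0
  apply hu
  have h1 : y * d = 1 := by rw [← hK.comm d hd y hy, hdy]
  have h2 := congrArg (fun w => y *ᵥ w) hdu
  simpa [Matrix.mulVec_mulVec, h1] using h2

/-- general form: an element `τ v = v + φ v • z` (`φ z = 0`, `z ≠ 0`, `φ ≠ 0`, dimension `≥ 3`) normalises no
field subalgebra of degree `≥ 2`. -/
theorem ps3_gen {r : ℕ} (hr : 2 ≤ r) (h3 : 3 ≤ Fintype.card ι) (K : Subalgebra F (Matrix ι ι F))
    (hK : IsFieldSubalgebra r K) (τ : GL ι F) (z : ι → F) (hz : z ≠ 0) (φ : (ι → F) →ₗ[F] F)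
    (hφ : ∃ v, φ v ≠ 0) (hτ : ∀ v, (τ : Matrix ι ι F) *ᵥ v = v + φ v • z) :
    τ ∉ subalgebraNormalizer K := by
  intro hmem
  have hmem' : ∀ k : Matrix ι ι F, k ∈ K ↔
      (τ : Matrix ι ι F) * k * ((τ⁻¹ : GL ι F) : Matrix ι ι F) ∈ K := hmem
  -- the kernel of `φ` has dimension at least 2
  have hker : 2 ≤ Module.finrank F (LinearMap.ker φ) := by
    have h1 := LinearMap.finrank_range_add_finrank_ker φ
    have h2 : Module.finrank F (LinearMap.range φ) ≤ 1 := by
      have := Submodule.finrank_le (LinearMap.range φ)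
      rwa [Module.finrank_self] at this
    rw [Module.finrank_fintype_fun_eq_card] at h1
    omega
  -- Step A: `τ` commutes with `K`
  have hA : ∀ k ∈ K, (τ : Matrix ι ι F) * k = k * (τ : Matrix ι ι F) := by
    intro k hk
    obtain ⟨u, hu, hu0, hku⟩ := ps1_exists_ker (LinearMap.ker φ) hker (φ.comp (Matrix.toLin' k))
    rw [LinearMap.comp_apply, Matrix.toLin'_apply] at hku
    have hφu : φ u = 0 := LinearMap.mem_ker.1 hu
    have hτu : (τ : Matrix ι ι F) *ᵥ u = u := by rw [hτ, hφu, zero_smul, add_zero]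
    have hτu' : ((τ⁻¹ : GL ι F) : Matrix ι ι F) *ᵥ u = u := by
      conv_lhs => rw [← hτu]
      rw [stab_inv_mul]
    have hd : (τ : Matrix ι ι F) * k * ((τ⁻¹ : GL ι F) : Matrix ι ι F) - k = 0 := by
      refine ps3_inj K hK _ (K.sub_mem ((hmem' k).1 hk) hk) u hu0 ?_
      rw [Matrix.sub_mulVec, ← Matrix.mulVec_mulVec, ← Matrix.mulVec_mulVec, hτu', hτ, hku,
        zero_smul, add_zero, sub_self]
    have h1 := sub_eq_zero.1 hd
    calc (τ : Matrix ι ι F) * k
        = (τ : Matrix ι ι F) * k * (((τ⁻¹ : GL ι F) : Matrix ι ι F) * (τ : Matrix ι ι F)) := by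
          rw [← Units.val_mul, inv_mul_cancel, Units.val_one, mul_one]
      _ = k * (τ : Matrix ι ι F) := by rw [← mul_assoc, h1]
  -- Step B: `K` consists of scalars
  obtain ⟨v, hv⟩ := hφ
  have hB : ∀ k ∈ K, ∃ c : F, k = c • (1 : Matrix ι ι F) := by
    intro k hk
    have h1 := congrArg (fun M : Matrix ι ι F => M *ᵥ v) (hA k hk)
    simp only [← Matrix.mulVec_mulVec] at h1
    rw [hτ, hτ, Matrix.mulVec_add, Matrix.mulVec_smul] at h1
    have h2 : φ (k *ᵥ v) • z = φ v • (k *ᵥ z) := add_left_cancel h1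
    refine ⟨φ (k *ᵥ v) / φ v, ?_⟩
    have h3' : k - (φ (k *ᵥ v) / φ v) • (1 : Matrix ι ι F) = 0 := by
      refine ps3_inj K hK _ (K.sub_mem hk (K.smul_mem K.one_mem _)) z hz ?_
      rw [Matrix.sub_mulVec, Matrix.smul_mulVec, Matrix.one_mulVec, div_eq_inv_mul, mul_smul, h2,
        smul_smul, inv_mul_cancel₀ hv, one_smul, sub_self]
    exact sub_eq_zero.1 h3'
  -- Step C: dimension count
  have hle : Subalgebra.toSubmodule K ≤ Submodule.span F {(1 : Matrix ι ι F)} := by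
    intro k hk
    obtain ⟨c, rfl⟩ := hB k hk
    exact Submodule.smul_mem _ _ (Submodule.mem_span_singleton_self _)
  have h1 := Submodule.finrank_mono hle
  have h2 := finrank_span_le_card ({(1 : Matrix ι ι F)} : Set (Matrix ι ι F)) (R := F)
  rw [Set.toFinset_singleton, Finset.card_singleton] at h2
  have h4 : Module.finrank F (Subalgebra.toSubmodule K) = r := hK.finrank_eq
  omega

/-- PS3 (m ≥ 2, degree r ≥ 2). -/
theorem not_le_fieldNormalizer (m r : ℕ) (hm : 2 ≤ m) (hr : 2 ≤ r)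
    (K : Subalgebra F (Matrix (Fin m ⊕ Fin m) (Fin m ⊕ Fin m) F)) (hK : IsFieldSubalgebra r K) :
    ¬ spGL m F ≤ subalgebraNormalizer K := by
  intro hle
  have hS := symp_isSymplectic (F := F) m
  have hz0 : (Pi.single (Sum.inl ⟨0, by omega⟩) 1 : Fin m ⊕ Fin m → F) ≠ 0 := by
    intro h
    have := congrFun h (Sum.inl ⟨0, by omega⟩)
    simp at this
  obtain ⟨g, hg, hgv⟩ := exists_transvection m
    (Pi.single (Sum.inl ⟨0, by omega⟩) 1 : Fin m ⊕ Fin m → F) (1 : F)
  obtain ⟨⟨x, hx⟩, -⟩ := hS.nondegenerate _ hz0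
  refine ps3_gen hr ?_ K hK g _ hz0 (ps1F m _) ⟨x, hx⟩ ?_ (hle hg)
  · rw [Fintype.card_sum, Fintype.card_fin]
    omega
  · intro v
    rw [hgv, one_mul, ps1F_apply]

end Cfsg.Agent.Lib.Helper66.ASP4
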