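import Cfsg.Agent.Lib.Helper66.ASP4.PS1

set_option autoImplicit false

namespace Cfsg.Agent.Lib.Helper66.ASP4

open Cfsg Cfsg.Geo Cfsg.Agent.Lib.Helper77.Asch
open scoped MatrixGroups Matrix

variable {F : Type*} [Field F]
variable {ι : Type} [Fintype ι] [DecidableEq ι]

/-- unfolding of membership in a subfield group: `P⁻¹ g P = c • y`, `y` over `F₀`. -/
theorem ps4_mem (F₀ : Subfield F) (P g : GL ι F) (hg : g ∈ subfieldSubgroup F₀ P) :
    ∃ (c : F) (y : ι → ι → F₀), ∀ i j,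
      (((P⁻¹ : GL ι F) : Matrix ι ι F) * (g : Matrix ι ι F) * (P : Matrix ι ι F)) i j =
        c * ((y i j : F₀) : F) := by
  obtain ⟨x, hx, hxe⟩ := hg
  have hxt : x = P⁻¹ * g * P := by
    have : P * x * P⁻¹ = g := hxe
    rw [← this]
    group
  obtain ⟨g0, ⟨y, rfl⟩, s, hs, hprod⟩ := Subgroup.mem_sup_of_normal_right.1 hx
  obtain ⟨c, hc⟩ := (mem_scalars_iff s).1 hs
  refine ⟨c, fun i j => y i j, fun i j => ?_⟩
  rw [← Units.val_mul, ← Units.val_mul, ← hxt, ← hprod, Units.val_mul, hc, Matrix.mul_smul,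
    Matrix.mul_one, Matrix.smul_apply, smul_eq_mul]
  rfl

/-- the row `i₀` of `P⁻¹ g P` for `g v = v + φ v • z`, `z = P e_{i₀}` -/
theorem ps4_entry (P g : GL ι F) (z : ι → F) (i0 : ι)
    (hPz : ((P⁻¹ : GL ι F) : Matrix ι ι F) *ᵥ z = Pi.single i0 1) (φ : (ι → F) → F)
    (hgv : ∀ v, (g : Matrix ι ι F) *ᵥ v = v + φ v • z) (l : ι) :
    (((P⁻¹ : GL ι F) : Matrix ι ι F) * (g : Matrix ι ι F) * (P : Matrix ι ι F)) i0 l =
      (Pi.single l (1 : F) : ι → F) i0 + φ ((P : Matrix ι ι F) *ᵥ Pi.single l 1) := by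
  have h1 : (((P⁻¹ : GL ι F) : Matrix ι ι F) * (g : Matrix ι ι F) * (P : Matrix ι ι F)) *ᵥ
      Pi.single l 1 = Pi.single l 1 + φ ((P : Matrix ι ι F) *ᵥ Pi.single l 1) • Pi.single i0 1 := by
    rw [← Matrix.mulVec_mulVec, ← Matrix.mulVec_mulVec, hgv, Matrix.mulVec_add, stab_inv_mul,
      Matrix.mulVec_smul, hPz]
  have h2 := congrFun h1 i0
  rw [Matrix.mulVec_single_one] at h2
  simpa using h2

/-- PS4 (m ≥ 1).  `z = P e_{i₀}`; in the basis `P` the transvection `τ_{z,c}` is `1 + c • e_{i₀} ⊗ b` with `b_{i₀} = 0`. -/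
theorem not_le_subfield [Finite F] [CharP F 2] (m : ℕ) (hm : 1 ≤ m) (F₀ : Subfield F) (h : F₀ ≠ ⊤) (P : GL (Fin m ⊕ Fin m) F) :
    ¬ spGL m F ≤ subfieldSubgroup F₀ P := by
  intro hle
  have hS := symp_isSymplectic (F := F) m
  obtain ⟨a, ha⟩ : ∃ a, a ∉ F₀ := by
    by_contra hcon
    push Not at hcon
    exact h (eq_top_iff.2 fun z _ => hcon z)
  let i0 : Fin m ⊕ Fin m := Sum.inl ⟨0, hm⟩
  obtain ⟨z, hz⟩ : ∃ z, z = (P : Matrix (Fin m ⊕ Fin m) (Fin m ⊕ Fin m) F) *ᵥ Pi.single i0 1 := ⟨_, rfl⟩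
  have hPz : ((P⁻¹ : GL (Fin m ⊕ Fin m) F) : Matrix _ _ F) *ᵥ z = Pi.single i0 1 := by
    rw [hz, stab_inv_mul]
  have hz0 : z ≠ 0 := by
    intro h0
    rw [h0, Matrix.mulVec_zero] at hPz
    have := congrFun hPz i0
    simp at this
  -- a basis vector not orthogonal to `z`
  obtain ⟨j, hj⟩ : ∃ j, sympForm m F ((P : Matrix (Fin m ⊕ Fin m) (Fin m ⊕ Fin m) F) *ᵥ Pi.single j 1) z ≠ 0 := by
    by_contra hcon
    push Not at hcon
    have h1 : (ps1F m z).comp (Matrix.toLin' (P : Matrix (Fin m ⊕ Fin m) (Fin m ⊕ Fin m) F)) = 0 := by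
      apply LinearMap.pi_ext'
      intro j
      apply LinearMap.ext_ring
      simpa using hcon j
    obtain ⟨⟨x, hx⟩, -⟩ := hS.nondegenerate z hz0
    apply hx
    have h2 := LinearMap.congr_fun h1 (((P⁻¹ : GL (Fin m ⊕ Fin m) F) : Matrix _ _ F) *ᵥ x)
    rw [LinearMap.comp_apply, Matrix.toLin'_apply, stab_mul_inv, ps1F_apply] at h2
    exact h2
  have hji : j ≠ i0 := by
    rintro rfl
    apply hj
    rw [← hz, hS.alternating]
  obtain ⟨g, hg, hgv⟩ := exists_transvection m z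
    (a / sympForm m F ((P : Matrix (Fin m ⊕ Fin m) (Fin m ⊕ Fin m) F) *ᵥ Pi.single j 1) z)
  obtain ⟨c, y, hy⟩ := ps4_mem F₀ P g (hle hg)
  have hent := fun l => ps4_entry P g z i0 hPz _ hgv l
  have h00 := hent i0
  rw [← hz, hS.alternating, mul_zero, add_zero, Pi.single_eq_same, hy] at h00
  have h0j := hent j
  rw [div_mul_cancel₀ _ hj, Pi.single_eq_of_ne hji.symm, zero_add, hy] at h0j
  have hcF : c ∈ F₀ := by
    have hy0 : ((y i0 i0 : F₀) : F) ≠ 0 := by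
      intro h0
      rw [h0, mul_zero] at h00
      exact zero_ne_one h00
    have : c = ((y i0 i0 : F₀) : F)⁻¹ := by
      field_simp
      exact h00
    rw [this]
    exact F₀.inv_mem (y i0 i0 : F₀).2
  apply ha
  rw [← h0j]
  exact F₀.mul_mem hcF (y i0 j : F₀).2

end Cfsg.Agent.Lib.Helper66.ASP4
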