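import Cfsg.Agent.Lib.Helper66.ASP4.PS1
import Cfsg.Agent.Lib.Helper66.ASP4.PERP

set_option autoImplicit false

namespace Cfsg.Agent.Lib.Helper66.ASP4

open Cfsg Cfsg.Geo Cfsg.Agent.Lib.Helper77.Asch
open scoped MatrixGroups Matrix

variable {F : Type*} [Field F]
variable {ι : Type} [Fintype ι] [DecidableEq ι]

theorem ps5_Q (m : ℕ) (Q : (Fin m ⊕ Fin m → F) → F) (hQ : IsNondegenerateQuadraticForm Q)
    (hpol : ∀ u v, QuadraticMap.polar Q u v = sympForm m F u v) (c : F) (z v : Fin m ⊕ Fin m → F) :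
    Q (v + (c * sympForm m F v z) • z) = Q v + (sympForm m F v z) ^ 2 * (c + c ^ 2 * Q z) := by
  have hS := symp_isSymplectic (F := F) m
  have h1 : Q (v + (c * sympForm m F v z) • z) =
      Q v + Q ((c * sympForm m F v z) • z) + QuadraticMap.polar Q v ((c * sympForm m F v z) • z) := by
    unfold QuadraticMap.polar
    ring
  rw [h1, hQ.smul, hpol, hS.bilinear.smul_right]
  ring

/-- some vector orthogonal to `z` is non-singular (`m ≥ 2`) -/
theorem ps5_exists (m : ℕ) (hm : 2 ≤ m) (Q : (Fin m ⊕ Fin m → F) → F)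
    (hpol : ∀ u v, QuadraticMap.polar Q u v = sympForm m F u v) (z : Fin m ⊕ Fin m → F) (hz : z ≠ 0) :
    ∃ v, sympForm m F v z = 0 ∧ Q v ≠ 0 := by
  by_contra hcon
  push Not at hcon
  have hmemU : ∀ v, v ∈ perp m (Submodule.span F {z}) → sympForm m F v z = 0 := by
    intro v hv
    rw [symp_skew, (mem_perp m _ v).1 hv z (Submodule.mem_span_singleton_self z), neg_zero]
  have hle : perp m (Submodule.span F {z}) ≤ perp m (perp m (Submodule.span F {z})) := by
    intro v hv
    rw [mem_perp]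
    intro w hw
    rw [← hpol]
    unfold QuadraticMap.polar
    rw [hcon _ (hmemU _ (Submodule.add_mem _ hw hv)), hcon _ (hmemU _ hw), hcon _ (hmemU _ hv)]
    ring
  have h1 := perp_finrank m (Submodule.span F {z})
  have h2 := perp_finrank m (perp m (Submodule.span F {z}))
  have h3 := Submodule.finrank_mono hle
  rw [finrank_span_singleton hz] at h1
  omega

/-- PS5 (m ≥ 2, |F| ≥ 4 … only need two distinct non-zero c). -/
theorem not_le_quadSim [Fintype F] [CharP F 2] (m : ℕ) (hm : 2 ≤ m) (h4 : 4 ≤ Fintype.card F) (Q : (Fin m ⊕ Fin m → F) → F)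
    (hQ : IsNondegenerateQuadraticForm Q) (hpol : ∀ u v, QuadraticMap.polar Q u v = sympForm m F u v) :
    ¬ spGL m F ≤ quadSimilarityGroup Q := by
  classical
  intro hle
  have hS := symp_isSymplectic (F := F) m
  obtain ⟨a, ha0, ha1⟩ : ∃ a : F, a ≠ 0 ∧ a ≠ 1 := by
    by_contra hcon
    push Not at hcon
    have h1 : (Finset.univ : Finset F) ⊆ {0, 1} := by
      intro x _
      by_cases hx : x = 0
      · simp [hx]
      · simp [hcon x hx]
    have h2 := Finset.card_le_card h1
    have h3 : ({0, 1} : Finset F).card ≤ 2 := Finset.card_le_two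
    rw [Finset.card_univ] at h2
    omega
  obtain ⟨z, hz0⟩ : ∃ z : Fin m ⊕ Fin m → F, z ≠ 0 := by
    refine ⟨Pi.single (Sum.inl ⟨0, by omega⟩) 1, ?_⟩
    intro h
    have := congrFun h (Sum.inl ⟨0, by omega⟩)
    simp at this
  obtain ⟨v0, hv0z, hv0Q⟩ := ps5_exists m hm Q hpol z hz0
  obtain ⟨⟨v1, hv1⟩, -⟩ := hS.nondegenerate z hz0
  have key : ∀ c : F, c + c ^ 2 * Q z = 0 := by
    intro c
    obtain ⟨g, hg, hgv⟩ := exists_transvection m z c
    obtain ⟨μ, hμ⟩ := hle hg
    have h1 := hμ v0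
    rw [hgv, hv0z, mul_zero, zero_smul, add_zero] at h1
    have hμ1 : (μ : F) = 1 := by
      have h2 : ((μ : F) - 1) * Q v0 = 0 := by
        rw [sub_mul, one_mul, ← h1, sub_self]
      rcases mul_eq_zero.1 h2 with h3 | h3
      · exact sub_eq_zero.1 h3
      · exact absurd h3 hv0Q
    have h2 := hμ v1
    rw [hgv, ps5_Q m Q hQ hpol, hμ1, one_mul] at h2
    have h3 : (sympForm m F v1 z) ^ 2 * (c + c ^ 2 * Q z) = 0 := by
      have := h2
      linear_combination this
    rcases mul_eq_zero.1 h3 with h5 | h5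
    · exact absurd (pow_eq_zero_iff (two_ne_zero)|>.1 h5) hv1
    · exact h5
  have k1 := key 1
  have ka := key a
  have h1 : a * (1 + a * Q z) = 0 := by linear_combination ka
  have h2 : 1 + a * Q z = 0 := by
    rcases mul_eq_zero.1 h1 with h | h
    · exact absurd h ha0
    · exact h
  have h3 : (a - 1) * Q z = 0 := by linear_combination h2 - k1
  have h4' : Q z = 0 := by
    rcases mul_eq_zero.1 h3 with h | h
    · exact absurd (sub_eq_zero.1 h) ha1
    · exact h
  rw [h4', mul_zero, add_zero] at h2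
  exact one_ne_zero h2

end Cfsg.Agent.Lib.Helper66.ASP4
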