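import Cfsg.Agent.Lib.Helper66.ASP4.Defs

set_option autoImplicit false

namespace Cfsg.Agent.Lib.Helper66.ASP4

open Cfsg Cfsg.Geo Cfsg.Agent.Lib.Helper77.Asch
open scoped MatrixGroups Matrix

variable {F : Type*} [Field F]
variable {ι : Type} [Fintype ι] [DecidableEq ι]

/-- the bilinear form attached to a function satisfying `IsBilinearForm`. -/
noncomputable def schurB (f : (ι → F) → (ι → F) → F) (hf : IsBilinearForm f) : LinearMap.BilinForm F (ι → F) :=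
  LinearMap.mk₂ F f hf.add_left (fun c x v => by rw [hf.smul_left, smul_eq_mul]) hf.add_right
    (fun c x v => by rw [hf.smul_right, smul_eq_mul])

theorem schur_form_eq (f : (ι → F) → (ι → F) → F) (hf : IsBilinearForm f) (u v : ι → F) :
    f u v = u ⬝ᵥ (gramMatrix f *ᵥ v) := by
  have h1 : gramMatrix f = LinearMap.BilinForm.toMatrix' (schurB f hf) := by
    ext i j
    rw [LinearMap.BilinForm.toMatrix'_apply]
    rfl
  rw [h1, ← Matrix.toBilin'_apply', Matrix.toBilin'_toMatrix']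
  rfl

theorem schur_mulVec (f : (ι → F) → (ι → F) → F) (hf : IsBilinearForm f) (P : Matrix ι ι F) (u v : ι → F) :
    f (P *ᵥ u) (P *ᵥ v) = u ⬝ᵥ ((Pᵀ * gramMatrix f * P) *ᵥ v) := by
  rw [schur_form_eq f hf, ← Matrix.mulVec_mulVec, ← Matrix.mulVec_mulVec, Matrix.dotProduct_mulVec u Pᵀ,
    Matrix.vecMul_transpose]

theorem schur_entry (M : Matrix ι ι F) (i j : ι) :
    (Pi.single i 1 : ι → F) ⬝ᵥ (M *ᵥ Pi.single j 1) = M i j := by
  simp

theorem schur_gram_conj (f : (ι → F) → (ι → F) → F) (hf : IsBilinearForm f) (P : Matrix ι ι F) (i j : ι) :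
    (Pᵀ * gramMatrix f * P) i j = f (P *ᵥ Pi.single i 1) (P *ᵥ Pi.single j 1) := by
  rw [schur_mulVec f hf, schur_entry]

theorem schur_inv (f : (ι → F) → (ι → F) → F) (hf : IsBilinearForm f) (s : Matrix ι ι F)
    (hs : ∀ u v, f (s *ᵥ u) (s *ᵥ v) = f u v) : sᵀ * gramMatrix f * s = gramMatrix f := by
  ext i j
  rw [schur_gram_conj f hf, hs]
  rfl

theorem schur_det (f : (ι → F) → (ι → F) → F) (hf : IsBilinearForm f) (hfn : IsNondegenerateForm f) :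
    (gramMatrix f).det ≠ 0 := by
  intro h0
  obtain ⟨v, hv, hv0⟩ := Matrix.exists_mulVec_eq_zero_iff.2 h0
  obtain ⟨⟨x, hx⟩, -⟩ := hfn v hv
  apply hx
  rw [schur_form_eq f hf, hv0, dotProduct_zero]

/-- SCHUR. -/
theorem schur_bilin (P : Subgroup (GL ι F)) (hP : ActsAbsolutelyIrreducibly (matrixSet P))
    (f g : (ι → F) → (ι → F) → F) (hf : IsBilinearForm f) (hfn : IsNondegenerateForm f) (hg : IsBilinearForm g)
    (hfP : FixesForm (matrixSet P) f) (hgP : FixesForm (matrixSet P) g) : ∃ c : F, ∀ u v, g u v = c * f u v := by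
  set Jf := gramMatrix f with hJf
  set Jg := gramMatrix g with hJg
  have hdet : IsUnit Jf.det := isUnit_iff_ne_zero.2 (schur_det f hf hfn)
  have h1 : Jf⁻¹ * Jf = 1 := Matrix.nonsing_inv_mul _ hdet
  have h2 : Jf * Jf⁻¹ = 1 := Matrix.mul_nonsing_inv _ hdet
  obtain ⟨c, hc⟩ := hP.2 (Jf⁻¹ * Jg) (by
    rintro _ ⟨x, hx, rfl⟩
    set X : Matrix ι ι F := (x : Matrix ι ι F) with hX
    set Y : Matrix ι ι F := ((x⁻¹ : GL ι F) : Matrix ι ι F) with hY
    have hXY : X * Y = 1 := by rw [hX, hY, ← Units.val_mul, mul_inv_cancel, Units.val_one]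
    have hYX' : Yᵀ * Xᵀ = 1 := by rw [← Matrix.transpose_mul, hXY, Matrix.transpose_one]
    have ef : Xᵀ * Jf * X = Jf := schur_inv f hf X (hfP X ⟨x, hx, rfl⟩)
    have eg : Xᵀ * Jg * X = Jg := schur_inv g hg X (hgP X ⟨x, hx, rfl⟩)
    have ef' : Jf * X = Yᵀ * Jf := by
      calc Jf * X = (Yᵀ * Xᵀ) * (Jf * X) := by rw [hYX', Matrix.one_mul]
        _ = Yᵀ * (Xᵀ * Jf * X) := by simp only [Matrix.mul_assoc]
        _ = Yᵀ * Jf := by rw [ef]
    have eg' : Jg * X = Yᵀ * Jg := by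
      calc Jg * X = (Yᵀ * Xᵀ) * (Jg * X) := by rw [hYX', Matrix.one_mul]
        _ = Yᵀ * (Xᵀ * Jg * X) := by simp only [Matrix.mul_assoc]
        _ = Yᵀ * Jg := by rw [eg]
    have e3 : X * Jf⁻¹ = Jf⁻¹ * Yᵀ := by
      calc X * Jf⁻¹ = (Jf⁻¹ * Jf) * X * Jf⁻¹ := by rw [h1, Matrix.one_mul]
        _ = Jf⁻¹ * (Jf * X) * Jf⁻¹ := by simp only [Matrix.mul_assoc]
        _ = Jf⁻¹ * Yᵀ * (Jf * Jf⁻¹) := by rw [ef']; simp only [Matrix.mul_assoc]
        _ = Jf⁻¹ * Yᵀ := by rw [h2, Matrix.mul_one]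
    calc Jf⁻¹ * Jg * X = Jf⁻¹ * (Jg * X) := by rw [Matrix.mul_assoc]
      _ = (Jf⁻¹ * Yᵀ) * Jg := by rw [eg', Matrix.mul_assoc]
      _ = X * (Jf⁻¹ * Jg) := by rw [← e3, Matrix.mul_assoc])
  have hJ : Jg = c • Jf := by
    calc Jg = (Jf * Jf⁻¹) * Jg := by rw [h2, Matrix.one_mul]
      _ = Jf * (Jf⁻¹ * Jg) := by rw [Matrix.mul_assoc]
      _ = c • Jf := by rw [hc, Matrix.mul_smul, Matrix.mul_one]
  refine ⟨c, fun u v => ?_⟩
  rw [schur_form_eq g hg, schur_form_eq f hf, ← hJg, ← hJf, hJ, Matrix.smul_mulVec, dotProduct_smul, smul_eq_mul]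

end Cfsg.Agent.Lib.Helper66.ASP4
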