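import Cfsg.Agent.Lib.Helper66.ASP4.Defs
import Cfsg.Agent.Lib.Helper66.ASP4.SYMP
import Cfsg.Agent.Lib.Helper66.ASP4.SCHUR

set_option autoImplicit false

namespace Cfsg.Agent.Lib.Helper66.ASP4

open Cfsg Cfsg.Geo Cfsg.Agent.Lib.Helper77.Asch
open scoped MatrixGroups Matrix

variable {F : Type*} [Field F]
variable {ι : Type} [Fintype ι] [DecidableEq ι]

/-- QF. -/
theorem out5_of_fixesQuad (m : ℕ) (P : Subgroup (GL (Fin m ⊕ Fin m) F)) (hPs : P ≤ spGL m F)
    (hP : ActsAbsolutelyIrreducibly (matrixSet P)) (Q' : (Fin m ⊕ Fin m → F) → F)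
    (hQ' : IsNondegenerateQuadraticForm Q') (hfix : FixesQuadForm (matrixSet P) Q') : Out5 m P := by
  have hS := symp_isSymplectic (F := F) m
  have hfix1 : FixesForm (matrixSet P) (QuadraticMap.polar Q') := by
    intro s hs u v
    unfold QuadraticMap.polar
    rw [← Matrix.mulVec_add, hfix s hs, hfix s hs, hfix s hs]
  have hfix2 : FixesForm (matrixSet P) (sympForm m F) := by
    rintro _ ⟨x, hx, rfl⟩ u v
    exact hPs hx u v
  obtain ⟨c, hc⟩ := schur_bilin P hP (QuadraticMap.polar Q') (sympForm m F) hQ'.polar_bilinear hQ'.nondegenerate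
    hS.bilinear hfix1 hfix2
  have hpol : QuadraticMap.polar (fun v => c * Q' v) = sympForm m F := by
    funext u v
    rw [hc]
    unfold QuadraticMap.polar
    ring
  refine ⟨fun v => c * Q' v, ⟨?_, ?_, ?_⟩, ?_, ?_⟩
  · intro a v
    show c * Q' (a • v) = a ^ 2 * (c * Q' v)
    rw [hQ'.smul]
    ring
  · rw [hpol]; exact hS.bilinear
  · rw [hpol]; exact hS.nondegenerate
  · intro u v
    rw [hpol]
  · intro s hs v
    show c * Q' (s *ᵥ v) = c * Q' v
    rw [hfix s hs]

end Cfsg.Agent.Lib.Helper66.ASP4
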