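import Cfsg.Agent.Lib.Helper66.ASP4.Defs
import Cfsg.Agent.Lib.Helper66.ASP4.SCHUR
import Cfsg.Agent.Lib.Helper11.AschO.SF1

set_option autoImplicit false

namespace Cfsg.Agent.Lib.Helper66.ASP4

open Cfsg Cfsg.Geo Cfsg.Agent.Lib.Helper77.Asch
open scoped MatrixGroups Matrix

variable {F : Type*} [Field F]
variable {ι : Type} [Fintype ι] [DecidableEq ι]

theorem rat_of_entries (f : (ι → F) → (ι → F) → F) (hf : IsBilinearForm f) (F₁ : Subfield F) (ζ : F) (P : GL ι F)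
    (h : ∀ i j, ζ * ((P : Matrix ι ι F)ᵀ * gramMatrix f * (P : Matrix ι ι F)) i j ∈ F₁) :
    IsFormRationalStructure f F₁ ζ P := by
  intro u v hu hv
  rw [schur_mulVec f hf]
  simp only [dotProduct, Matrix.mulVec, Finset.mul_sum]
  refine F₁.sum_mem fun i _ => F₁.sum_mem fun j _ => ?_
  have e : ζ * (u i * (((P : Matrix ι ι F)ᵀ * gramMatrix f * (P : Matrix ι ι F)) i j * v j))
      = u i * (ζ * ((P : Matrix ι ι F)ᵀ * gramMatrix f * (P : Matrix ι ι F)) i j) * v j := by ring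
  rw [e]
  exact F₁.mul_mem (F₁.mul_mem (hu i) (h i j)) (hv j)

theorem rat_single_mem (F₀ : Subfield F) (i j : ι) : (Pi.single i 1 : ι → F) j ∈ F₀ := by
  by_cases h : j = i
  · subst h
    rw [Pi.single_eq_same]
    exact F₀.one_mem
  · rw [Pi.single_eq_of_ne h]
    exact F₀.zero_mem

/-- RAT. -/
theorem rational_form [Finite F] (P : Subgroup (GL ι F)) (hP : ActsAbsolutelyIrreducibly (matrixSet P))
    (f : (ι → F) → (ι → F) → F) (hf : IsBilinearForm f) (hfn : IsNondegenerateForm f)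
    (hfP : FixesForm (matrixSet P) f) (F₀ : Subfield F) (B : GL ι F)
    (hB : ∀ s ∈ matrixSet P, ∀ i j,
      ((B : Matrix ι ι F) * s * ((B⁻¹ : GL ι F) : Matrix ι ι F)) i j ∈ F₀) :
    ∃ ζ : F, ζ ≠ 0 ∧ IsFormRationalStructure f F₀ ζ B⁻¹ := by
  have : Fintype F := Fintype.ofFinite F
  obtain ⟨t, ht, h⟩ := Cfsg.Agent.Lib.Helper11.AschO.gram_rational P hP F₀ B hB (gramMatrix f) (schur_det f hf hfn)
    (fun s hs => schur_inv f hf s (hfP s hs))
  exact ⟨t⁻¹, inv_ne_zero ht, rat_of_entries f hf F₀ t⁻¹ B⁻¹ h⟩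

/-- RAT (easy). -/
theorem rational_mono (f : (ι → F) → (ι → F) → F) (hf : IsBilinearForm f) {F₀ F₁ : Subfield F} (h : F₀ ≤ F₁) (ζ : F) (P : GL ι F)
    (hr : IsFormRationalStructure f F₀ ζ P) : IsFormRationalStructure f F₁ ζ P := by
  apply rat_of_entries f hf
  intro i j
  rw [schur_gram_conj f hf]
  exact h (hr _ _ (rat_single_mem F₀ i) (rat_single_mem F₀ j))

end Cfsg.Agent.Lib.Helper66.ASP4
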