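import Cfsg.Agent.Lib.Helper66.ASP4.Defs
import Cfsg.Agent.Lib.Helper66.ASP4.SYMP

set_option autoImplicit false

namespace Cfsg.Agent.Lib.Helper66.ASP4

open Cfsg Cfsg.Geo Cfsg.Agent.Lib.Helper77.Asch
open scoped MatrixGroups Matrix

variable {F : Type*} [Field F]
variable {ι : Type} [Fintype ι] [DecidableEq ι]

/-- SC1. c • 1 ∈ spGL ⇒ c² = 1 ⇒ c = 1 in characteristic 2 (needs m ≥ 1). -/
theorem scalar_eq_one [CharP F 2] (m : ℕ) (hm : 0 < m) (g : GL (Fin m ⊕ Fin m) F) (hg : g ∈ spGL m F)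
    (c : F) (hc : (g : Matrix (Fin m ⊕ Fin m) (Fin m ⊕ Fin m) F) = c • 1) : g = 1 := by
  have hS := symp_isSymplectic (F := F) m
  have hg' : ∀ u v, sympForm m F ((g : Matrix (Fin m ⊕ Fin m) (Fin m ⊕ Fin m) F) *ᵥ u)
      ((g : Matrix (Fin m ⊕ Fin m) (Fin m ⊕ Fin m) F) *ᵥ v) = sympForm m F u v := hg
  have hv0 : (Pi.single (Sum.inl ⟨0, hm⟩) 1 : Fin m ⊕ Fin m → F) ≠ 0 := by
    intro h
    have := congrFun h (Sum.inl ⟨0, hm⟩)
    simp at this
  obtain ⟨⟨x, hx⟩, -⟩ := hS.nondegenerate _ hv0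
  have h1 := hg' x (Pi.single (Sum.inl ⟨0, hm⟩) 1)
  rw [hc, Matrix.smul_mulVec, Matrix.smul_mulVec, Matrix.one_mulVec, Matrix.one_mulVec,
    hS.bilinear.smul_left, hS.bilinear.smul_right] at h1
  have h2 : c * c = 1 := by
    have h3 : (c * c - 1) * sympForm m F x (Pi.single (Sum.inl ⟨0, hm⟩) 1) = 0 := by
      rw [sub_mul, one_mul, mul_assoc, h1, sub_self]
    rcases mul_eq_zero.1 h3 with h4 | h4
    · exact sub_eq_zero.1 h4
    · exact absurd h4 hx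
  have h5 : c = 1 := by
    have h6 : (c - 1) * (c - 1) = 0 := by
      have h7 : (c - 1) * (c - 1) = c * c - 2 * c + 1 := by ring
      rw [h7, h2, CharTwo.two_eq_zero, zero_mul, sub_zero, ← two_mul, CharTwo.two_eq_zero, zero_mul]
    exact sub_eq_zero.1 (mul_self_eq_zero.1 h6)
  apply Units.ext
  rw [hc, h5, one_smul, Units.val_one]

/-- CH2. -/
theorem charTwo_of_not_odd [Fintype F] (h : ¬ Odd (Fintype.card F)) : CharP F 2 := by
  apply ringChar.of_eq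
  rw [FiniteField.even_card_iff_char_two]
  exact Nat.even_iff.1 (Nat.not_odd_iff_even.1 h)

end Cfsg.Agent.Lib.Helper66.ASP4
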