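import Cfsg.Agent.Lib.Helper66.ASP4.Defs
import Cfsg.Agent.Lib.Helper66.ASP4.SC1
import Cfsg.Agent.Lib.Helper11.AschO.SQ
import Cfsg.Agent.Lib.Helper11.AschO.SCZ
import Cfsg.Agent.Lib.Helper77.Asch.AG5

set_option autoImplicit false

namespace Cfsg.Agent.Lib.Helper66.ASP4

open Cfsg Cfsg.Geo Cfsg.Agent.Lib.Helper77.Asch
open scoped MatrixGroups Matrix commutatorElement

variable {F : Type*} [Field F]
variable {ι : Type} [Fintype ι] [DecidableEq ι]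

theorem res_nonabelian_quot {G : Type*} [Group G] (Z P : Subgroup G) [Z.Normal] (h : ¬ ⁅P, P⁆ ≤ Z) :
    ¬ IsMulCommutative (P ⧸ Z.subgroupOf P) := by
  intro hc
  apply h
  rw [Subgroup.commutator_le]
  intro a ha b hb
  have h1 : (((⟨a, ha⟩ : P) : P ⧸ Z.subgroupOf P)) * ((⟨b, hb⟩ : P) : P ⧸ Z.subgroupOf P)
      = ((⟨b, hb⟩ : P) : P ⧸ Z.subgroupOf P) * ((⟨a, ha⟩ : P) : P ⧸ Z.subgroupOf P) :=
    hc.is_comm.comm _ _
  have h2 : ((⁅(⟨a, ha⟩ : P), (⟨b, hb⟩ : P)⁆ : P) : P ⧸ Z.subgroupOf P) = 1 := by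
    rw [commutatorElement_def, QuotientGroup.mk_mul, QuotientGroup.mk_mul, QuotientGroup.mk_mul,
      QuotientGroup.mk_inv, QuotientGroup.mk_inv, h1]
    group
  rw [QuotientGroup.eq_one_iff, Subgroup.mem_subgroupOf] at h2
  exact h2

/-- RES. -/
theorem residual_core [CharP F 2] (H N : Subgroup (GL (Fin 2 ⊕ Fin 2) F)) (hH : H ≤ spGL 2 F) (hle : N ≤ H)
    (hn : NormBy H N) (hne : N ≠ ⊥) (hp : ⁅N, N⁆ = N)
    (hs : ∀ M : Subgroup (GL (Fin 2 ⊕ Fin 2) F), M ≤ N → NormBy N M → M = ⊥ ∨ M = N)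
    (hN : ActsAbsolutelyIrreducibly (matrixSet N))
    (hsub : ∀ F₀ : Subfield F, F₀ ≠ ⊤ → ¬ RealisableOver F₀ (matrixSet N)) : IsResidualCore H N := by
  have hNZ : N ⊓ scalars (Fin 2 ⊕ Fin 2) F = ⊥ := by
    rw [eq_bot_iff]
    rintro g ⟨hg1, hg2⟩
    rw [Subgroup.mem_bot]
    obtain ⟨c, hc⟩ := (mem_scalars_iff g).1 hg2
    exact scalar_eq_one 2 (by norm_num) g (hH (hle hg1)) c hc
  refine ⟨hle, hn, hp, ?_, ?_, ?_, hN, hsub⟩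
  · exact Cfsg.Agent.Lib.Helper11.AschO.simple_quot_of_inf_bot (scalars (Fin 2 ⊕ Fin 2) F) N hNZ hne hs
  · apply res_nonabelian_quot
    rw [hp]
    intro h
    exact hne (eq_bot_iff.2 (hNZ ▸ le_inf le_rfl h))
  · intro h _ hh
    have hcen := centralizes_of_perfect (scalars (Fin 2 ⊕ Fin 2) F) N
      (fun z hz g => Cfsg.Agent.Lib.Helper11.AschO.scalars_central z hz g) hp h hh
    obtain ⟨c, hc'⟩ := hN.2 (h : Matrix (Fin 2 ⊕ Fin 2) (Fin 2 ⊕ Fin 2) F) (by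
      rintro _ ⟨x, hx, rfl⟩
      have := congrArg (fun g : GL (Fin 2 ⊕ Fin 2) F => (g : Matrix (Fin 2 ⊕ Fin 2) (Fin 2 ⊕ Fin 2) F)) (hcen x hx)
      simpa using this)
    have hc0 : c ≠ 0 := by
      rintro rfl
      have h1 : (h : Matrix (Fin 2 ⊕ Fin 2) (Fin 2 ⊕ Fin 2) F) = 0 := by rw [hc', zero_smul]
      have h3 : (h : Matrix (Fin 2 ⊕ Fin 2) (Fin 2 ⊕ Fin 2) F) *
          ((h⁻¹ : GL (Fin 2 ⊕ Fin 2) F) : Matrix (Fin 2 ⊕ Fin 2) (Fin 2 ⊕ Fin 2) F) = 1 := by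
        rw [← Units.val_mul, mul_inv_cancel, Units.val_one]
      rw [h1, zero_mul] at h3
      exact zero_ne_one h3
    rw [mem_scalars_iff]
    exact ⟨Units.mk0 c hc0, hc'⟩

end Cfsg.Agent.Lib.Helper66.ASP4
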