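import Cfsg.Agent.Lib.Helper66.ASP4.STRUCT
import Cfsg.Agent.Lib.Helper66.ASP4.G2
import Cfsg.Agent.Lib.Helper66.ASP4.G3
import Cfsg.Agent.Lib.Helper66.ASP4.QINV
import Cfsg.Agent.Lib.Helper66.ASP4.FIX0
import Cfsg.Agent.Lib.Helper66.ASP4.SC1
import Cfsg.Agent.Lib.Helper77.Asch.AG0

set_option autoImplicit false
set_option linter.unusedSectionVars false
set_option linter.unusedVariables false

namespace Cfsg.Agent.Lib.Helper66.ASP4

open Cfsg Cfsg.Geo Cfsg.Agent.Lib.Helper77.Asch
open scoped MatrixGroups Matrix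

variable {F : Type*} [Field F]
variable {ι : Type} [Fintype ι] [DecidableEq ι]

/-- SIMPLE -/
theorem simple_or_out5 [Finite F] [CharP F 2] (H N : Subgroup (GL (Fin 2 ⊕ Fin 2) F)) (hH : H ≤ spGL 2 F)
    (hirr : ActsIrreducibly (matrixSet H)) (hm : MinOver H ⊥ N)
    (hN : ActsAbsolutelyIrreducibly (matrixSet N)) (hp : ⁅N, N⁆ = N) :
    Out5 2 H ∨ ∀ M : Subgroup (GL (Fin 2 ⊕ Fin 2) F), M ≤ N → NormBy N M → M = ⊥ ∨ M = N := by
  by_cases h5 : Out5 2 H
  · exact Or.inl h5
  right
  intro M₀ hM₀ hnM₀
  by_contra hcon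
  push Not at hcon
  obtain ⟨h0, h1⟩ := hcon
  have hNs : N ≤ spGL 2 F := hm.le.trans hH
  have hNne : N ≠ ⊥ := bot_lt_iff_ne_bot.1 hm.lt
  obtain ⟨M, hlt, hle, hnM, hmin⟩ := ag0_exists_min N ⊥ M₀ (bot_lt_iff_ne_bot.2 h0) hnM₀
  have hMN : M ≤ N := hle.trans hM₀
  have hMne : M ≠ ⊥ := bot_lt_iff_ne_bot.1 hlt
  have hcase : (∀ x ∈ M, ∀ y ∈ M, x * y = y * x) ∨ ⁅M, M⁆ = M := by
    rcases hmin ⁅M, M⁆ bot_le (ag5_commutator_le_self M) (ag5_normBy_commutator hnM hnM) with h | h
    · left
      intro x hx y hy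
      have := (Subgroup.commutator_eq_bot_iff_le_centralizer.1 h) hx
      rw [Subgroup.mem_centralizer_iff] at this
      exact (this y hy).symm
    · exact Or.inr h
  rcases struct N M hNs hN.1 hMN hnM hMne hcase with h2 | h3 | h5' | ⟨hMabs, -⟩
  · obtain ⟨D, hD, hND⟩ := h2
    exact perfect_not_decomp N hp hN.1 2 D hD.decomp hND
  · obtain ⟨K, hK, -, -, hNK⟩ := h3
    exact perfect_not_field N hp hN K hK hNK
  · obtain ⟨Q, hQ, hpol, hfix⟩ := h5'
    exact h5 ⟨Q, hQ, hpol, qinv 2 H N hH hm.norm (noFix H N hirr hm.norm hNne) Q hQ hpol hfix⟩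
  · -- `M` is absolutely irreducible
    have hMeq : M = N := by
      by_cases hinv : NormBy H M
      · rcases hm.min M bot_le hMN hinv with h | h
        · exact absurd h hMne
        · exact h
      · exfalso
        unfold NormBy at hinv
        push Not at hinv
        obtain ⟨h, hh, x, hx, hxM⟩ := hinv
        obtain ⟨M', hM'⟩ : ∃ M', M' = M.map (MulAut.conj h).toMonoidHom := ⟨_, rfl⟩
        have hmem : ∀ y, y ∈ M' ↔ ∃ z ∈ M, h * z * h⁻¹ = y := by
          intro y
          rw [hM', Subgroup.mem_map]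
          rfl
        have hM'N : M' ≤ N := by
          intro y hy
          obtain ⟨z, hz, rfl⟩ := (hmem y).1 hy
          exact hm.norm h hh z (hMN hz)
        have hnM' : NormBy N M' := by
          intro n hn y hy
          obtain ⟨z, hz, rfl⟩ := (hmem y).1 hy
          have hn' : h⁻¹ * n * h ∈ N := by
            have := hm.norm h⁻¹ (inv_mem hh) n hn
            rwa [inv_inv] at this
          refine (hmem _).2 ⟨(h⁻¹ * n * h) * z * (h⁻¹ * n * h)⁻¹, hnM _ hn' z hz, ?_⟩
          group
        rcases hmin (M ⊓ M') bot_le inf_le_left (ag5_normBy_inf hnM hnM') with hb | hb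
        · -- commuting
          have hcomm : ∀ a ∈ M, ∀ b ∈ M', a * b = b * a := by
            intro a ha b hb'
            have h1 : a * b * a⁻¹ * b⁻¹ ∈ M ⊓ M' := by
              refine Subgroup.mem_inf.2 ⟨?_, ?_⟩
              · have := hnM b (hM'N hb') a⁻¹ (inv_mem ha)
                have h2 := mul_mem ha this
                convert h2 using 1
                group
              · have := hnM' a (hMN ha) b hb'
                exact mul_mem this (inv_mem hb')
            rw [hb, Subgroup.mem_bot] at h1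
            have h2 : a * b = (a * b * a⁻¹ * b⁻¹) * (b * a) := by group
            rw [h2, h1, one_mul]
          have hM'bot : ∀ b ∈ M', b = 1 := by
            intro b hb'
            obtain ⟨c, hc⟩ := hMabs.2 (b : Matrix (Fin 2 ⊕ Fin 2) (Fin 2 ⊕ Fin 2) F) (by
              rintro _ ⟨a, ha, rfl⟩
              rw [← Units.val_mul, ← Units.val_mul, hcomm a ha b hb'])
            exact scalar_eq_one 2 (by norm_num) b (hNs (hM'N hb')) c hc
          have := hM'bot _ ((hmem _).2 ⟨x, hx, rfl⟩)
          apply hxM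
          rw [this]
          exact one_mem _
        · -- `M ≤ M'`, equal cardinality
          have hle' : M ≤ M' := by
            rw [← hb]
            exact inf_le_right
          have hcard : Nat.card M' = Nat.card M := by
            rw [hM']
            exact Subgroup.card_map_of_injective (MulAut.conj h).injective
          have heq : M = M' := Subgroup.eq_of_le_of_card_ge hle' hcard.le
          apply hxM
          rw [heq]
          exact (hmem _).2 ⟨x, hx, rfl⟩
    apply h1
    apply le_antisymm hM₀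
    rw [← hMeq]
    exact hle

end Cfsg.Agent.Lib.Helper66.ASP4
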