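import Cfsg.Agent.Lib.Helper66.ASP4.TRI
import Cfsg.Agent.Lib.Helper66.ASP4.PLANES
import Cfsg.Agent.Lib.Helper66.ASP4.PCOMM
import Cfsg.Agent.Lib.Helper66.ASP4.ADJOIN
import Cfsg.Agent.Lib.Helper66.ASP4.CENT
import Cfsg.Agent.Lib.Helper66.ASP4.SC1

set_option autoImplicit false
set_option linter.unusedSectionVars false
set_option linter.unusedVariables false

namespace Cfsg.Agent.Lib.Helper66.ASP4

open Cfsg Cfsg.Geo Cfsg.Agent.Lib.Helper77.Asch
open scoped MatrixGroups Matrix

variable {F : Type*} [Field F]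
variable {ι : Type} [Fintype ι] [DecidableEq ι]

/-- STRUCT -/
theorem struct [Finite F] [CharP F 2] (L M : Subgroup (GL (Fin 2 ⊕ Fin 2) F)) (hL : L ≤ spGL 2 F)
    (hirr : ActsIrreducibly (matrixSet L)) (hML : M ≤ L) (hn : NormBy L M) (hM : M ≠ ⊥)
    (hcase : (∀ x ∈ M, ∀ y ∈ M, x * y = y * x) ∨ ⁅M, M⁆ = M) :
    Out2 L ∨ Out3 L ∨ Out5 2 L ∨ (ActsAbsolutelyIrreducibly (matrixSet M) ∧ ⁅M, M⁆ = M) := by
  have hMs : M ≤ spGL 2 F := hML.trans hL
  rcases hcase with hab | hp
  · rcases tri L hL hirr (Algebra.adjoin F (matrixSet M)) (adjoin_comm M hab) (adjoin_adj 2 M hMs)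
      (adjoin_norm L M hn) with h | h | h | h
    · exact Or.inl h
    · exact Or.inr (Or.inl h)
    · exact Or.inr (Or.inr (Or.inl h))
    · exfalso
      apply hM
      rw [Subgroup.eq_bot_iff_forall]
      intro x hx
      obtain ⟨c, hc⟩ := h _ (Algebra.subset_adjoin ⟨x, hx, rfl⟩)
      exact scalar_eq_one 2 (by norm_num) x (hMs hx) c hc
  · by_cases hred : ActsIrreducibly (matrixSet M)
    · have hf := comm_field (matrixSet M) hred
      rcases tri L hL hirr (Subalgebra.centralizer F (matrixSet M)) hf.comm (centralizer_adj 2 M hMs)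
        (centralizer_norm L M hn) with h | h | h | h
      · exact Or.inl h
      · exact Or.inr (Or.inl h)
      · exact Or.inr (Or.inr (Or.inl h))
      · refine Or.inr (Or.inr (Or.inr ⟨⟨hred, ?_⟩, hp⟩))
        intro X hX
        apply h
        rw [Subalgebra.mem_centralizer_iff]
        intro s hs
        exact (hX s hs).symm
    · rcases planes L M hL hirr hML hn hp hM hred with h | h
      · exact Or.inl h
      · exact Or.inr (Or.inr (Or.inl h))

end Cfsg.Agent.Lib.Helper66.ASP4
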