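import Cfsg.Agent.Lib.Helper66.ASP4.ADJ
import Cfsg.Agent.Lib.Helper66.ASP4.NILP
import Cfsg.Agent.Lib.Helper66.ASP4.IDEM
import Cfsg.Agent.Lib.Helper66.ASP4.IDEC
import Cfsg.Agent.Lib.Helper66.ASP4.FLD3
import Cfsg.Agent.Lib.Helper66.ASP4.NSA

set_option autoImplicit false
set_option linter.unusedSectionVars false
set_option linter.unusedVariables false

namespace Cfsg.Agent.Lib.Helper66.ASP4

open Cfsg Cfsg.Geo Cfsg.Agent.Lib.Helper77.Asch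
open scoped MatrixGroups Matrix

variable {F : Type*} [Field F]
variable {ι : Type} [Fintype ι] [DecidableEq ι]

theorem tri_adj_conj (m : ℕ) (g : GL (Fin m ⊕ Fin m) F) (hg : g ∈ spGL m F)
    (k : Matrix (Fin m ⊕ Fin m) (Fin m ⊕ Fin m) F) :
    adjM m ((g : Matrix (Fin m ⊕ Fin m) (Fin m ⊕ Fin m) F) * k * ((g⁻¹ : GL (Fin m ⊕ Fin m) F) : Matrix _ _ F)) =
      (g : Matrix (Fin m ⊕ Fin m) (Fin m ⊕ Fin m) F) * adjM m k * ((g⁻¹ : GL (Fin m ⊕ Fin m) F) : Matrix _ _ F) := by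
  rw [adj_mul, adj_mul, adj_of_mem m g hg, adj_of_mem m g⁻¹ (inv_mem hg), inv_inv, mul_assoc]

/-- the self-adjoint part of a commutative subalgebra -/
def plusAlg (m : ℕ) (A : Subalgebra F (Matrix (Fin m ⊕ Fin m) (Fin m ⊕ Fin m) F))
    (hc : ∀ x ∈ A, ∀ y ∈ A, x * y = y * x) : Subalgebra F (Matrix (Fin m ⊕ Fin m) (Fin m ⊕ Fin m) F) where
  carrier := {a | a ∈ A ∧ adjM m a = a}
  mul_mem' := by
    intro a b ha hb
    exact ⟨mul_mem ha.1 hb.1, by rw [adj_mul, ha.2, hb.2, hc _ hb.1 _ ha.1]⟩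
  add_mem' := by
    intro a b ha hb
    exact ⟨add_mem ha.1 hb.1, by rw [adj_add, ha.2, hb.2]⟩
  algebraMap_mem' := by
    intro r
    exact ⟨A.algebraMap_mem r, by rw [Algebra.algebraMap_eq_smul_one, adj_smul, adj_one]⟩

theorem mem_plusAlg (m : ℕ) (A : Subalgebra F (Matrix (Fin m ⊕ Fin m) (Fin m ⊕ Fin m) F))
    (hc : ∀ x ∈ A, ∀ y ∈ A, x * y = y * x) (a : Matrix (Fin m ⊕ Fin m) (Fin m ⊕ Fin m) F) :
    a ∈ plusAlg m A hc ↔ a ∈ A ∧ adjM m a = a := Iff.rfl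

theorem plusAlg_norm (m : ℕ) (L : Subgroup (GL (Fin m ⊕ Fin m) F)) (hL : L ≤ spGL m F)
    (A : Subalgebra F (Matrix (Fin m ⊕ Fin m) (Fin m ⊕ Fin m) F))
    (hc : ∀ x ∈ A, ∀ y ∈ A, x * y = y * x) (hn : L ≤ subalgebraNormalizer A) :
    L ≤ subalgebraNormalizer (plusAlg m A hc) := by
  intro g hg k
  rw [mem_plusAlg, mem_plusAlg, tri_adj_conj m g (hL hg), ← hn hg k]
  apply and_congr_right
  intro _
  constructor
  · intro h
    rw [h]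
  · intro h
    have e2 : ((g⁻¹ : GL (Fin m ⊕ Fin m) F) : Matrix (Fin m ⊕ Fin m) (Fin m ⊕ Fin m) F) * (g : Matrix _ _ F) = 1 := by
      rw [← Units.val_mul, inv_mul_cancel, Units.val_one]
    have key : ∀ X : Matrix (Fin m ⊕ Fin m) (Fin m ⊕ Fin m) F,
        ((g⁻¹ : GL (Fin m ⊕ Fin m) F) : Matrix (Fin m ⊕ Fin m) (Fin m ⊕ Fin m) F) *
          ((g : Matrix _ _ F) * X * ((g⁻¹ : GL (Fin m ⊕ Fin m) F) : Matrix _ _ F)) * (g : Matrix _ _ F) = X := by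
      intro X
      calc _ = (((g⁻¹ : GL (Fin m ⊕ Fin m) F) : Matrix (Fin m ⊕ Fin m) (Fin m ⊕ Fin m) F) * (g : Matrix _ _ F)) * X *
            (((g⁻¹ : GL (Fin m ⊕ Fin m) F) : Matrix (Fin m ⊕ Fin m) (Fin m ⊕ Fin m) F) * (g : Matrix _ _ F)) := by
            simp only [mul_assoc]
        _ = X := by rw [e2, one_mul, mul_one]
    rw [← key (adjM m k), h, key]

/-- TRI -/
theorem tri [Finite F] [CharP F 2] (L : Subgroup (GL (Fin 2 ⊕ Fin 2) F)) (hL : L ≤ spGL 2 F)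
    (hirr : ActsIrreducibly (matrixSet L))
    (A : Subalgebra F (Matrix (Fin 2 ⊕ Fin 2) (Fin 2 ⊕ Fin 2) F)) (hc : ∀ x ∈ A, ∀ y ∈ A, x * y = y * x)
    (hadj : ∀ a ∈ A, adjM 2 a ∈ A) (hn : L ≤ subalgebraNormalizer A) :
    Out2 L ∨ Out3 L ∨ Out5 2 L ∨ ∀ a ∈ A, ∃ c : F, a = c • 1 := by
  have hcP : ∀ x ∈ plusAlg 2 A hc, ∀ y ∈ plusAlg 2 A hc, x * y = y * x :=
    fun x hx y hy => hc x hx.1 y hy.1
  have hnP := plusAlg_norm 2 L hL A hc hn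
  by_cases hsc : ∀ a ∈ plusAlg 2 A hc, ∃ c : F, a = c • 1
  · by_cases hA : ∀ a ∈ A, ∃ c : F, a = c • 1
    · exact Or.inr (Or.inr (Or.inr hA))
    · push Not at hA
      obtain ⟨a, ha, hne⟩ := hA
      exact Or.inr (Or.inr (Or.inl (out5_of_nsa 2 L hL A hadj hn (fun a ha h => hsc a ⟨ha, h⟩) ⟨a, ha, hne⟩)))
  · by_cases hu : ∀ a ∈ plusAlg 2 A hc, a ≠ 0 → IsUnit a
    · refine Or.inr (Or.inl (out3_of_field L (Module.finrank F (plusAlg 2 A hc)) (plusAlg 2 A hc)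
        ⟨hcP, fun x hx h0 => inv_mem_of_isUnit _ x hx (hu x hx h0), rfl⟩ ?_ (fun k hk => hk.2) hnP))
      intro h1
      apply hsc
      rw [Subalgebra.finrank_eq_one_iff] at h1
      intro a ha
      rw [h1, Algebra.mem_bot] at ha
      obtain ⟨c, rfl⟩ := ha
      exact ⟨c, Algebra.algebraMap_eq_smul_one c⟩
    · push Not at hu
      obtain ⟨a, ha, h0, hnu⟩ := hu
      obtain ⟨e, heP, he, he0, he1⟩ := exists_idem (plusAlg 2 A hc) a ha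
        (fun hnil => h0 (no_nilpotent L hirr _ hcP hnP a ha hnil)) hnu
      refine Or.inl (out2_of_idem L hL e he he0 he1 heP.2 ?_)
      intro g hg
      exact hc _ heP.1 _ ((hn hg e).1 heP.1)

end Cfsg.Agent.Lib.Helper66.ASP4
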