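import Cfsg.Agent.Lib.Helper66.ASP4.Defs
import Cfsg.Agent.Lib.Helper28.Descent.Gram

set_option autoImplicit false

namespace Cfsg.Agent.Lib.Helper66.ASP4

open Cfsg Cfsg.Geo Cfsg.Agent.Lib.Helper77.Asch
open scoped MatrixGroups Matrix

variable {F : Type*} [Field F]
variable {ι : Type} [Fintype ι] [DecidableEq ι]

/-- UF (general ι): semilinear descent, from `Helper28.Descent.realisable_of_bilin_unitary`
(Gram matrices, norm surjectivity, Hilbert 90 for `GL`). -/
theorem realisable_of_unitary [Finite F] [Nonempty ι] (P : Subgroup (GL ι F)) (hP : ActsAbsolutelyIrreducibly (matrixSet P))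
    (f : (ι → F) → (ι → F) → F) (hf : IsBilinearForm f) (hfn : IsNondegenerateForm f)
    (hfP : FixesForm (matrixSet P) f) (σ : F ≃+* F) (g : (ι → F) → (ι → F) → F) (hg : IsUnitaryForm σ g)
    (hgP : FixesForm (matrixSet P) g) : ∃ F₀ : Subfield F, F₀ ≠ ⊤ ∧ RealisableOver F₀ (matrixSet P) :=
  Cfsg.Agent.Lib.Helper28.Descent.realisable_of_bilin_unitary P hP f hf hfn hfP σ g hg hgP

end Cfsg.Agent.Lib.Helper66.ASP4
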